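import Cfsg.Agent.H15.Stab
import Cfsg.Agent.H1.PLength2
import Cfsg.Agent.H5.Balance4

/-! Odd order solvable groups whose Sylow `p`-subgroup has cyclic derived group. -/

set_option autoImplicit false

namespace Cfsg.Agent.H3

open Subgroup Cfsg
open scoped commutatorElement

universe u

theorem pl1_of_cyc_der (p : ℕ) [hp : Fact p.Prime] (n : ℕ) : ∀ (X : Type u) [Group X] [Finite X],
    Nat.card X = n → Group.IsSolvable X → Odd (Nat.card X) → ∀ S : Sylow p X,
    IsCyclic (⁅(S : Subgroup X), (S : Subgroup X)⁆ : Subgroup X) → PLengthLE p 1 X := by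
  induction n using Nat.strong_induction_on with
  | _ n ih =>
  intro X _ _ hn hs ho S hS
  by_contra h
  obtain ⟨h1, -, h2, h3, h4, h5, -⟩ := H1.pLength_critical (H1.isPSolvable_of_isSolvable p hs) h
    fun N _ hN => by
      refine ih _ ?_ (X ⧸ N) rfl inferInstance (ho.of_dvd_nat (card_quotient_dvd_card N))
        (S.mapSurjective (QuotientGroup.mk'_surjective N)) ?_
      · rw [← hn, ← N.index_mul_card]
        have := (one_lt_card_iff_ne_bot N).2 hN
        have h0 : 0 < N.index := Nat.pos_of_ne_zero N.index_ne_zero_of_finite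
        change N.index < _
        nlinarith
      · rw [Sylow.coe_mapSurjective, ← map_commutator]
        exact isCyclic_of_surjective _ ((QuotientGroup.mk' N).subgroupMap_surjective _)
  have hV := H1.isPGroup_pCore (G := X) p
  have hVS : pCore p X ≤ S := hV.le_sylow_of_normal S
  have p2 : p ≠ 2 := by
    rintro rfl
    have := (hV.card_eq_or_dvd.resolve_left fun e => h2 (card_eq_one.1 e)).trans
      (card_subgroup_dvd_card _)
    exact (Nat.not_even_iff_odd.2 ho) (even_iff_two_dvd.2 this)
  set D : Subgroup X := ⁅pCore p X, (S : Subgroup X)⁆ with hD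
  have hDV : D ≤ pCore p X := commutator_le_left _ _
  have hDc : IsCyclic D := isCyclic_of_le (commutator_mono hVS le_rfl)
  have hDS : D ≤ centralizer ((S : Subgroup X) : Set X) := by
    by_cases h0 : D = ⊥
    · rw [h0]; exact bot_le
    have hn : (S : Subgroup X) ≤ normalizer (D : Set X) := normalizer_commutator_ge_right _ _
    obtain ⟨t, ht, htc, hto⟩ := H5.exists_central_of_isPGroup S.isPGroup' (hV.to_le hDV) hn h0
    obtain ⟨g, hg⟩ := hDc.exists_generator
    have hc : Nat.card D ≤ p := by
      rw [← orderOf_eq_card_of_forall_mem_zpowers hg]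
      exact Nat.le_of_dvd hp.out.pos (orderOf_dvd_of_pow_eq_one (Subtype.ext (h4 _ (hDV g.2))))
    rw [← eq_of_le_of_card_ge (zpowers_le.2 ht) (by rw [Nat.card_zpowers, hto]; exact hc)]
    exact zpowers_le.2 htc
  have hle : (S : Subgroup X) ≤ pCore p X := fun a ha =>
    H15.mem_pCore_of_quad p2 ho h5.le _ hV inf_le_left (by
      rw [H15.Quad, commutator_eq_bot_iff_le_centralizer]
      exact (commutator_mono le_rfl (zpowers_le.2 ha)).trans
        (hDS.trans (centralizer_le (zpowers_le.2 ha))))
  refine h (H1.pLengthLE_one_iff.2 ?_)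
  exact Nat.Coprime.of_dvd_left (index_dvd_of_le (hle.trans (H1.pCore_le_pPrimePCore p)))
    ((Nat.Prime.coprime_iff_not_dvd hp.out).2 S.not_dvd_index).symm

end Cfsg.Agent.H3
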