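import Cfsg.Agent.H3.Tate
import Cfsg.Agent.H3.Critical
import Cfsg.Agent.H14.WrQuot
import Cfsg.Agent.H14.Tate
import Cfsg.Agent.H12.Tate
import Cfsg.Agent.H1.Coprime2

/-! Partial transfers and the Hall–Wielandt–Yoshida theorem for weakly closed subgroups. -/

set_option autoImplicit false

namespace H3

open Cfsg Subgroup
open scoped Pointwise commutatorElement IsMulCommutative

section Coc
variable {G X A : Type*} [Group G] [MulAction G X] [CommGroup A]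

/-- cocycle identity -/
def IsCoc (c : G → X → A) : Prop := ∀ g h ξ, c (g * h) ξ = c g (h • ξ) * c h ξ

theorem IsCoc.one {c : G → X → A} (hc : IsCoc c) (ξ : X) : c 1 ξ = 1 := by
  have := hc 1 1 ξ
  rw [one_mul, one_smul] at this
  exact mul_eq_left.mp this.symm

theorem prod_smul_eq {Y : Finset X} {g : G} (hg : ∀ ξ ∈ Y, g • ξ ∈ Y) (f : X → A) :
    ∏ ξ ∈ Y, f (g • ξ) = ∏ ξ ∈ Y, f ξ := by
  classical
  have h1 : Y.image (g • ·) = Y := Finset.eq_of_subset_of_card_le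
    (fun η hη => by obtain ⟨ξ, hξ, rfl⟩ := Finset.mem_image.mp hη; exact hg ξ hξ)
    (Finset.card_image_of_injective _ (MulAction.injective g)).ge
  conv_rhs => rw [← h1]
  rw [Finset.prod_image (MulAction.injective g).injOn]

theorem IsCoc.prod_mul {c : G → X → A} (hc : IsCoc c) {Y : Finset X} (g : G) {h : G}
    (hh : ∀ ξ ∈ Y, h • ξ ∈ Y) :
    ∏ ξ ∈ Y, c (g * h) ξ = (∏ ξ ∈ Y, c g ξ) * ∏ ξ ∈ Y, c h ξ := by
  rw [← prod_smul_eq hh (c g), ← Finset.prod_mul_distrib]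
  exact Finset.prod_congr rfl fun ξ _ => hc _ _ _

theorem IsCoc.prod_conj {c : G → X → A} (hc : IsCoc c) {Y : Finset X} (b : G) {g : G}
    (hg : ∀ ξ ∈ Y, (b⁻¹ * g * b) • ξ ∈ Y) :
    ∏ ξ ∈ Y, c g (b • ξ) = ∏ ξ ∈ Y, c (b⁻¹ * g * b) ξ := by
  have h1 := hc.prod_mul b hg
  rw [show b * (b⁻¹ * g * b) = g * b by group] at h1
  simp only [hc g b, Finset.prod_mul_distrib] at h1
  rw [mul_comm] at h1
  exact mul_left_cancel h1

theorem IsCoc.prod_eq_one {c : G → X → A} (hc : IsCoc c) {Y : Finset X} {Z : Subgroup G}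
    (hY : ∀ g ∈ Z, ∀ ξ ∈ Y, g • ξ ∈ Y) (h : ∀ g ∈ Z, ∀ ξ ∈ Y, g • ξ = ξ → c g ξ = 1)
    {g : G} (hg : g ∈ Z) : ∏ ξ ∈ Y, c g ξ = 1 := by
  let r : X → X := fun ξ => (Quotient.mk (MulAction.orbitRel Z X) ξ).out
  have hr : ∀ ξ, ∃ k ∈ Z, k • r ξ = ξ := fun ξ => by
    have : MulAction.orbitRel Z X ξ (r ξ) := Quotient.exact (Quotient.out_eq _).symm
    obtain ⟨k, hk⟩ := MulAction.orbitRel_apply.mp this
    exact ⟨k, k.2, hk⟩
  choose k hk hk' using hr
  have hrg : ∀ ξ, r (g • ξ) = r ξ := fun ξ => congrArg Quotient.out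
    (Quotient.sound (MulAction.orbitRel_apply.mpr ⟨⟨g, hg⟩, rfl⟩))
  have key : ∀ ξ ∈ Y, c (k (g • ξ)) (r (g • ξ)) = c g ξ * c (k ξ) (r ξ) := fun ξ hξ => by
    have h1 : ((g * k ξ)⁻¹ * k (g • ξ)) • r ξ = r ξ := by
      rw [mul_smul, inv_smul_eq_iff, mul_smul, hk', ← hrg, hk']
    have h2 : r ξ ∈ Y := by
      have := hY _ (Z.inv_mem (hk ξ)) ξ hξ
      rwa [show (k ξ)⁻¹ • ξ = r ξ from inv_smul_eq_iff.mpr (hk' ξ).symm] at this
    have h3 := h _ (Z.mul_mem (Z.inv_mem (Z.mul_mem hg (hk ξ))) (hk _)) _ h2 h1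
    have h4 := hc (g * k ξ) ((g * k ξ)⁻¹ * k (g • ξ)) (r ξ)
    rw [h3, h1, mul_one, mul_inv_cancel_left, hc, hk'] at h4
    rw [hrg, h4]
  have h1 := prod_smul_eq (hY g hg) fun ξ => c (k ξ) (r ξ)
  rw [Finset.prod_congr rfl key, Finset.prod_mul_distrib] at h1
  exact mul_eq_right.mp h1

theorem exists_orbit_ne_one [Finite X] (f : X → A) (T : Subgroup G) (Y : Finset X) :
    (∀ g ∈ T, ∀ ξ ∈ Y, g • ξ ∈ Y) → ∏ ξ ∈ Y, f ξ ≠ 1 →
    ∃ ξ ∈ Y, ∀ O : Finset X, (∀ η, η ∈ O ↔ ∃ g ∈ T, g • ξ = η) → ∏ η ∈ O, f η ≠ 1 := by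
  classical
  induction Y using Finset.strongInduction with
  | _ Y ih =>
  intro hY h
  obtain ⟨ξ, hξ⟩ : Y.Nonempty := Finset.nonempty_iff_ne_empty.mpr fun h0 => h (by simp [h0])
  let O : Finset X := Y.filter fun η => ∃ g ∈ T, g • ξ = η
  by_cases h1 : ∏ η ∈ O, f η = 1
  · have hO : O ⊆ Y := Finset.filter_subset _ _
    obtain ⟨η, hη, h2⟩ := ih (Y \ O) (Finset.sdiff_ssubset hO ⟨ξ, Finset.mem_filter.mpr
      ⟨hξ, 1, T.one_mem, one_smul _ _⟩⟩) (fun g hg η hη => by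
        obtain ⟨h2, h3⟩ := Finset.mem_sdiff.mp hη
        refine Finset.mem_sdiff.mpr ⟨hY g hg η h2, fun h4 => h3 ?_⟩
        obtain ⟨-, u, hu, e⟩ := Finset.mem_filter.mp h4
        exact Finset.mem_filter.mpr ⟨h2, g⁻¹ * u, T.mul_mem (T.inv_mem hg) hu, by
          rw [mul_smul, e, inv_smul_smul]⟩) (by
        rw [← Finset.prod_sdiff hO, h1, mul_one] at h; exact h)
    exact ⟨η, (Finset.mem_sdiff.mp hη).1, h2⟩
  · refine ⟨ξ, hξ, fun O' hO' => ?_⟩
    have : O' = O := Finset.ext fun η => by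
      rw [hO', Finset.mem_filter]
      exact ⟨fun ⟨g, hg, e⟩ => ⟨e ▸ hY g hg ξ hξ, g, hg, e⟩, fun h => h.2⟩
    rwa [this]

end Coc

section Tr
variable {G A : Type*} [Group G] [CommGroup A] {H : Subgroup G}

theorem out_smul_mem (g : G) (ξ : G ⧸ H) : (g • ξ).out⁻¹ * g * ξ.out ∈ H := by
  rw [mul_assoc, ← QuotientGroup.eq, QuotientGroup.out_eq']
  conv_lhs => rw [← QuotientGroup.out_eq' ξ]
  rfl

/-- the transfer cocycle -/
noncomputable def trc (χ : H →* A) (g : G) (ξ : G ⧸ H) : A := χ ⟨_, out_smul_mem g ξ⟩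

theorem isCoc_trc (χ : H →* A) : IsCoc (trc χ) := fun g h ξ => by
  rw [trc, trc, trc, ← map_mul]
  congr 1
  ext
  simp [mul_smul, mul_assoc]

variable [Fintype (G ⧸ H)]

/-- the transfer as a product of the cocycle -/
noncomputable def trT (χ : H →* A) : G →* A :=
  MonoidHom.mk' (fun g => ∏ ξ, trc χ g ξ) fun g _ =>
    (isCoc_trc χ).prod_mul g fun _ _ => Finset.mem_univ _

theorem trT_apply (χ : H →* A) (g : G) : trT χ g = ∏ ξ, trc χ g ξ := rfl

theorem trT_res (θ : G →* A) (g : G) : trT (θ.comp H.subtype) g = θ g ^ H.index := by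
  have h1 := prod_smul_eq (Y := (Finset.univ : Finset (G ⧸ H))) (g := g)
    (fun _ _ => Finset.mem_univ _) fun ξ => θ ξ.out
  simp only [trT_apply, trc, MonoidHom.comp_apply, coe_subtype, map_mul, map_inv,
    Finset.prod_mul_distrib, Finset.prod_inv_distrib, h1, Finset.prod_const, Finset.card_univ]
  rw [inv_mul_cancel_comm, index, Nat.card_eq_fintype_card]

theorem map_trT {B : Type*} [CommGroup B] (a : A →* B) (χ : H →* A) (g : G) :
    a (trT χ g) = trT (a.comp χ) g := by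
  rw [trT_apply, map_prod]; rfl

theorem trT_mul (χ χ' : H →* A) (g : G) : trT (χ * χ') g = trT χ g * trT χ' g := by
  rw [trT_apply, trT_apply, trT_apply, ← Finset.prod_mul_distrib]; rfl

end Tr

section Engel
variable {G : Type*} [Group G] {p : ℕ} [hp : Fact p.Prime]

theorem engel_mem {R : Subgroup G} {z : G} (hz : z ∈ normalizer (R : Set G)) (n : ℕ) {x : G}
    (hx : x ∈ R) : (fun y : G => y⁻¹ * z⁻¹ * y * z)^[n] x ∈ R := by
  induction n with
  | zero => exact hx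
  | succ n ih =>
    rw [Function.iterate_succ_apply', mul_assoc, mul_assoc, ← mul_assoc z⁻¹]
    exact R.mul_mem (R.inv_mem ih) (conj_mem_of_mem_normalizer' hz ih)

theorem norm_eq_engel {R : Subgroup G} {z : G} (hz : z ∈ normalizer (R : Set G))
    {ψ : G → Multiplicative (ZMod p)} (hψ : ∀ a ∈ R, ∀ b ∈ R, ψ (a * b) = ψ a * ψ b) {x : G}
    (hx : x ∈ R) : ψ ((fun y : G => y⁻¹ * z⁻¹ * y * z)^[p - 1] x)
      = ∏ j ∈ Finset.range p, ψ ((z ^ j)⁻¹ * x * z ^ j) := by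
  let T : Module.End (ZMod p) (ℕ → ZMod p) :=
    { toFun := fun f j => f (j + 1), map_add' := fun _ _ => rfl, map_smul' := fun _ _ => rfl }
  let s : G → ℕ → ZMod p := fun y j => (ψ ((z ^ j)⁻¹ * y * z ^ j)).toAdd
  have h1 : ∀ y ∈ R, s (y⁻¹ * z⁻¹ * y * z) = (T - 1) (s y) := fun y hy => by
    funext j
    have h2 := conj_mem_of_mem_normalizer' (pow_mem hz j) hy
    have h0 : y⁻¹ * z⁻¹ * y * z ∈ R := engel_mem hz 1 hy
    have h3 := conj_mem_of_mem_normalizer' (pow_mem hz j) h0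
    have h4 := hψ _ h2 _ h3
    rw [show (z ^ j)⁻¹ * y * z ^ j * ((z ^ j)⁻¹ * (y⁻¹ * z⁻¹ * y * z) * z ^ j)
      = (z ^ (j + 1))⁻¹ * y * z ^ (j + 1) by group] at h4
    change _ = s y (j + 1) - s y j
    simp only [s, h4, toAdd_mul, add_sub_cancel_left]
  have h2 : ∀ n, s ((fun y : G => y⁻¹ * z⁻¹ * y * z)^[n] x) = ((T - 1) ^ n) (s x) := fun n => by
    induction n with
    | zero => rfl
    | succ n ih =>
      rw [Function.iterate_succ_apply', h1 _ (engel_mem hz n hx), ih, pow_succ']; rfl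
  have h3 : ∀ j (f : ℕ → ZMod p) i, (T ^ j) f i = f (i + j) := fun j => by
    induction j with
    | zero => intro f i; rfl
    | succ j ih => intro f i; rw [pow_succ, Module.End.mul_apply, ih]; rfl
  have h4 := congrFun (h2 (p - 1)) 0
  rw [(H14.Fus.sub_one_pow_pred T).1, LinearMap.sum_apply, Finset.sum_apply] at h4
  simp only [h3, zero_add, s, pow_zero, inv_one, one_mul, mul_one] at h4
  apply Multiplicative.toAdd.injective
  rw [h4, toAdd_prod]

theorem mem_of_pow_mem_of_not_dvd {R : Subgroup G} {z : G} (h1 : z ^ p ∈ R) {m : ℕ}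
    (hm : ¬ p ∣ m) (h2 : z ^ m ∈ R) : z ∈ R := by
  obtain ⟨k, -, hk⟩ := Nat.exists_mul_mod_eq_one_of_coprime
    ((Nat.Prime.coprime_iff_not_dvd hp.out).mpr hm).symm hp.out.one_lt
  have h3 := R.pow_mem h2 k
  rw [← pow_mul, ← Nat.div_add_mod (m * k) p, hk, pow_add, pow_mul, pow_one] at h3
  exact (R.mul_mem_cancel_left (R.pow_mem h1 _)).mp h3

omit hp in
theorem orderOf_conj_inv (a g : G) : orderOf (a⁻¹ * g * a) = orderOf g := by
  simpa using (MulAut.conj a⁻¹).orderOf_eq g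

variable [Finite G]

theorem exists_char_trT_eq_one (S : Sylow p G) {H : Subgroup G} [Fintype (G ⧸ H)]
    (hSH : (S : Subgroup G) ≤ H) {y : G} (hy : y ∈ (S : Subgroup G)) (hy1 : y ∈ commutator G)
    (hy2 : y ∉ ⁅H, H⁆) : ∃ χ : H →* Multiplicative (ZMod p), (∀ g, trT χ g = 1) ∧
      ∃ x : H, (x : G) ∈ (S : Subgroup G) ∧ χ x ≠ 1 := by
  let χ₀ : H →* Abelianization H := Abelianization.of
  have hn : ¬ p ∣ H.index := fun h => S.not_dvd_index (h.trans (index_dvd_of_le hSH))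
  let χ₁ : H →* Abelianization H :=
    (powMonoidHom H.index).comp χ₀ * (trT χ₀)⁻¹.comp H.subtype
  have h1 : ∀ g, trT χ₁ g = 1 := fun g => by
    rw [trT_mul, trT_res, ← map_trT]; simp
  obtain ⟨k, hk⟩ := S.isPGroup' ⟨y, hy⟩
  have hk' : (⟨y, hSH hy⟩ : H) ^ p ^ k = 1 := Subtype.ext (by simpa using congrArg Subtype.val hk)
  have h2 : χ₁ ⟨y, hSH hy⟩ ≠ 1 := fun h => by
    have h3 : trT χ₀ y = 1 := Abelianization.commutator_subset_ker _ hy1
    have h4 : χ₀ ⟨y, hSH hy⟩ ^ H.index = 1 := by simpa [χ₁, h3] using h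
    have h5 : χ₀ ⟨y, hSH hy⟩ = 1 := eq_one_of_pow_of_coprime (p := p) (k := k)
      (by rw [← map_pow, hk', map_one]) (((Nat.Prime.coprime_iff_not_dvd hp.out).mpr
        hn).symm.coprime_dvd_left (orderOf_dvd_of_pow_eq_one h4))
    exact hy2 (H12.map_commutator_subtype H ▸
      ⟨_, (QuotientGroup.eq_one_iff (N := commutator H) _).mp h5, rfl⟩)
  let χ₂ := χ₁.rangeRestrict
  have h3 : ∀ g, trT χ₂ g = 1 := fun g => Subtype.ext ((map_trT χ₁.range.subtype χ₂ g).trans (h1 g))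
  let K : Subgroup χ₁.range := (powMonoidHom p).range
  have hK : K ≠ ⊤ := fun h => by
    have h4 : Function.Injective (powMonoidHom p : χ₁.range →* χ₁.range) :=
      Finite.injective_iff_surjective.mpr (MonoidHom.range_eq_top.mp h)
    have h5 : ∀ (j : ℕ) (b : χ₁.range), b ^ p ^ j = 1 → b = 1 := fun j => by
      induction j with
      | zero => intro b hb; simpa using hb
      | succ j ih =>
        intro b hb
        exact ih b (h4 (by simpa [← pow_mul, ← pow_succ] using hb))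
    exact h2 (congrArg Subtype.val (h5 k (χ₂ ⟨y, hSH hy⟩) (by rw [← map_pow, hk', map_one])))
  obtain ⟨b, -, hb⟩ := SetLike.exists_of_lt (lt_top_iff_ne_top.mpr hK)
  obtain ⟨ψ, hψ⟩ := H14.Fus.exists_zmod_char (p := p) (B := χ₁.range ⧸ K) (fun c => by
    obtain ⟨c, rfl⟩ := QuotientGroup.mk_surjective c
    rw [← QuotientGroup.mk_pow, QuotientGroup.eq_one_iff]
    exact ⟨c, rfl⟩) (z := b) (by rwa [Ne, QuotientGroup.eq_one_iff])
  let χ := (ψ.comp (QuotientGroup.mk' K)).comp χ₂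
  refine ⟨χ, fun g => by rw [← map_trT, h3, map_one], ?_⟩
  obtain ⟨h, rfl⟩ := χ₁.rangeRestrict_surjective b
  obtain ⟨u, hu, x, hx, rfl⟩ := exists_mul_of_sup_eq_top (pResidual_sup_sylow (S.subtype hSH)) h
  refine ⟨x, hx, fun h4 => hψ ?_⟩
  change χ (u * x) = 1
  rw [map_mul, h4, mul_one]
  exact pResidual_le_ker (IsPGroup.of_card (n := 1) (by simp)) χ hu

theorem hall_wielandt_core (S : Sylow p G) {H W : Subgroup G} (hSH : (S : Subgroup G) ≤ H)
    (hWS : W ≤ S) (hSW : (S : Subgroup G) ≤ normalizer (W : Set G))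
    (hfix : ∀ g : G, (∀ w ∈ W, g⁻¹ * w * g ∈ H) → g ∈ H) {y : G} (hy : y ∈ (S : Subgroup G))
    (hy1 : y ∈ commutator G) (hy2 : y ∉ ⁅H, H⁆) :
    ∃ x ∈ (S : Subgroup G), ∃ z ∈ W, ∃ W₀ : Subgroup W, IsCoatom W₀ ∧
      (fun y : G => y⁻¹ * z⁻¹ * y * z)^[p - 1] x ∈ W₀.map W.subtype ∧
      (fun y : G => y⁻¹ * z⁻¹ * y * z)^[p - 1] x ∉ ((frattini W₀).map W₀.subtype).map W.subtype := by
  classical
  have := Fintype.ofFinite (G ⧸ H)
  obtain ⟨χ, hT, hex⟩ := exists_char_trT_eq_one S hSH hy hy1 hy2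
  obtain ⟨⟨x, hxH⟩, ⟨hx, hx1⟩, hmin⟩ := exists_minimalFor_of_wellFoundedLT
    (fun x : H => (x : G) ∈ (S : Subgroup G) ∧ χ x ≠ 1) (fun x => orderOf (x : G)) hex
  have hmin' : ∀ g ∈ (S : Subgroup G), ∀ η : G ⧸ H, g • η = η → orderOf g < orderOf x →
      trc χ g η = 1 := fun g hg η hη ho => by
    by_contra hc
    have h1 := out_smul_mem g η
    have h2 : orderOf ((g • η).out⁻¹ * g * η.out) = orderOf g := by
      rw [hη]; exact orderOf_conj_inv _ _
    obtain ⟨k, hk⟩ := IsPGroup.iff_orderOf.mp S.isPGroup' ⟨g, hg⟩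
    rw [orderOf_mk] at hk
    obtain ⟨h, hh, h3⟩ := exists_conj_le_of_sylowIn S.isPGroup' (sylow_not_dvd_relIndex S hSH)
      (IsPGroup.of_card (by rw [Nat.card_zpowers, h2, hk])) (zpowers_le.mpr h1)
    have h4 := @hmin (⟨h, hh⟩⁻¹ * ⟨_, h1⟩ * ⟨h, hh⟩) ⟨h3 _ (mem_zpowers _), by
      rw [map_mul, map_mul, map_inv, inv_mul_cancel_comm]; exact hc⟩
    have h5 : orderOf (h⁻¹ * ((g • η).out⁻¹ * g * η.out) * h) = orderOf g := by
      rw [← h2]; exact orderOf_conj_inv _ _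
    simp only [coe_mul, coe_inv, h5] at h4
    exact absurd (h4 ho.le) (not_le.mpr ho)
  set T := W ⊔ zpowers x with hTd
  have hTS : T ≤ S := sup_le hWS (zpowers_le.mpr hx)
  have hfix1 : ∀ g ∈ H, g • ((1 : G) : G ⧸ H) = ((1 : G) : G ⧸ H) := fun g hg =>
    QuotientGroup.eq.mpr (by simpa using hg)
  obtain ⟨ξ, hξ, hO⟩ := exists_orbit_ne_one (trc χ x) T (Finset.univ.erase ((1 : G) : G ⧸ H))
    (fun g hg η hη => Finset.mem_erase.mpr ⟨fun e => (Finset.mem_erase.mp hη).1 (by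
      rw [← hfix1 _ (H.inv_mem (hSH (hTS hg))), ← e, inv_smul_smul]), Finset.mem_univ _⟩)
    (fun e => hx1 (by
      have h1 := hT x
      rw [trT_apply, ← Finset.mul_prod_erase _ _ (Finset.mem_univ ((1 : G) : G ⧸ H)), e,
        mul_one] at h1
      have h2 : ((1 : G) : G ⧸ H).out ∈ H := by
        simpa using QuotientGroup.eq.mp (QuotientGroup.out_eq' ((1 : G) : G ⧸ H)).symm
      have h3 : trc χ x ((1 : G) : G ⧸ H) = χ (⟨_, h2⟩⁻¹ * ⟨x, hxH⟩ * ⟨_, h2⟩) := by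
        rw [trc]; congr 1; ext; simp [hfix1 x hxH]
      rwa [h3, map_mul, map_mul, map_inv, inv_mul_cancel_comm] at h1))
  have hlt : T ⊓ MulAction.stabilizer G ξ < T := lt_of_le_of_ne inf_le_left fun e => by
    refine (Finset.mem_erase.mp hξ).1 ?_
    rw [← QuotientGroup.out_eq' ξ, QuotientGroup.eq, mul_one, inv_mem_iff]
    refine hfix _ fun w hw => ?_
    have h1 := out_smul_mem w ξ
    rwa [show w • ξ = ξ from (e.ge (mem_sup_left hw)).2] at h1
  have hTp : IsPGroup p T := S.isPGroup'.to_le hTS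
  obtain ⟨R, hR1, hR2, hR3, hR4, hR5⟩ := H14.Fus.exists_max_sub hTp hlt
  let O : Finset (G ⧸ H) := Finset.univ.filter fun η => ∃ g ∈ T, g • ξ = η
  have hO' : ∀ η, η ∈ O ↔ ∃ g ∈ T, g • ξ = η := fun η => by simp [O]
  have hst : ∀ t ∈ T, ∀ η ∈ O, t • η = η → t ∈ R := fun t ht η hη e => by
    obtain ⟨g, hg, rfl⟩ := (hO' η).mp hη
    have h1 : g⁻¹ * t * g ∈ R := hR1 ⟨T.mul_mem (T.mul_mem (T.inv_mem hg) ht) hg, by
      change (g⁻¹ * t * g) • ξ = ξ
      rw [mul_smul, mul_smul, e, inv_smul_smul]⟩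
    exact (mem_normalizer_iff''.mp (hR3 hg) t).mpr h1
  have hxT : x ∈ T := mem_sup_right (mem_zpowers x)
  have hxR : x ∈ R := by
    by_contra hxR
    refine hO O hO' ((isCoc_trc χ).prod_eq_one (Z := zpowers x) (fun g hg η hη => ?_)
      (fun g hg η hη e => hmin' g (zpowers_le.mpr hx hg) η e ?_) (mem_zpowers x))
    · obtain ⟨u, hu, rfl⟩ := (hO' η).mp hη
      exact (hO' _).mpr ⟨g * u, T.mul_mem (zpowers_le.mpr hxT hg) hu, mul_smul _ _ _⟩
    · rw [← Nat.card_zpowers, ← Nat.card_zpowers]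
      exact card_lt_of_lt (lt_of_le_of_ne (zpowers_le.mpr hg) fun c => hxR (zpowers_le.mp
        (c ▸ zpowers_le.mpr (hst g (zpowers_le.mpr hxT hg) η hη e))))
  obtain ⟨z, hz, hzR⟩ : ∃ z ∈ W, z ∉ R := by
    by_contra! c
    exact hR2.not_ge (sup_le c (zpowers_le.mpr hxR))
  have hzT : z ∈ T := mem_sup_left hz
  have hzp : z ^ p ∈ R := by
    have := (normal_subgroupOf_iff_le_normalizer hR2.le).mpr hR3
    have h1 := (R.subgroupOf T).pow_index_mem ⟨z, hzT⟩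
    rwa [show (R.subgroupOf T).index = p from hR4] at h1
  let Y : Finset (G ⧸ H) := Finset.univ.filter fun η => ∃ g ∈ R, g • ξ = η
  have hY : ∀ η, η ∈ Y ↔ ∃ g ∈ R, g • ξ = η := fun η => by simp [Y]
  have hYR : ∀ g ∈ R, ∀ η ∈ Y, g • η ∈ Y := fun g hg η hη => by
    obtain ⟨u, hu, rfl⟩ := (hY η).mp hη
    exact (hY _).mpr ⟨g * u, R.mul_mem hg hu, mul_smul _ _ _⟩
  let ψ : G → Multiplicative (ZMod p) := fun g => ∏ η ∈ Y, trc χ g η
  have hψ : ∀ a ∈ R, ∀ b ∈ R, ψ (a * b) = ψ a * ψ b := fun a _ b hb =>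
    (isCoc_trc χ).prod_mul a (hYR b hb)
  have key : ψ ((fun y : G => y⁻¹ * z⁻¹ * y * z)^[p - 1] x) = ∏ η ∈ O, trc χ x η := by
    rw [norm_eq_engel (hR3 hzT) hψ hxR, Finset.prod_congr rfl fun j _ =>
      ((isCoc_trc χ).prod_conj (z ^ j) (hYR _ (conj_mem_of_mem_normalizer'
        (pow_mem (hR3 hzT) j) hxR))).symm, ← Finset.prod_product']
    have hne : ∀ i j : ℕ, i ≤ j → j < p → ∀ a ∈ R, ∀ b ∈ R, z ^ i • a • ξ = z ^ j • b • ξ →
        i = j := fun i j hij hj a ha b hb e => by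
      obtain ⟨d, rfl⟩ := Nat.exists_eq_add_of_le hij
      replace e : (a⁻¹ * z ^ d * b) • ξ = ξ := by
        rw [pow_add, mul_smul, smul_left_cancel_iff] at e
        rw [mul_smul, mul_smul, ← e, inv_smul_smul]
      have h1 : a⁻¹ * z ^ d * b ∈ R := hR1 ⟨T.mul_mem (T.mul_mem (T.inv_mem (hR2.le ha))
        (T.pow_mem hzT d)) (hR2.le hb), e⟩
      rw [R.mul_mem_cancel_right hb, R.mul_mem_cancel_left (R.inv_mem ha)] at h1
      have h2 : p ∣ d := by
        by_contra c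
        exact hzR (mem_of_pow_mem_of_not_dvd hzp c h1)
      rw [Nat.eq_zero_of_dvd_of_lt h2 (by omega), add_zero]
    refine Finset.prod_nbij (fun q : ℕ × (G ⧸ H) => z ^ q.1 • q.2) ?_ ?_ ?_ fun _ _ => rfl
    · rintro ⟨j, η⟩ hq
      obtain ⟨u, hu, rfl⟩ := (hY η).mp (Finset.mem_product.mp hq).2
      exact (hO' _).mpr ⟨z ^ j * u, T.mul_mem (T.pow_mem hzT j) (hR2.le hu), mul_smul _ _ _⟩
    · rintro ⟨i, η⟩ hq ⟨j, η'⟩ hq' e
      obtain ⟨hi, hη⟩ := Finset.mem_product.mp hq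
      obtain ⟨hj, hη'⟩ := Finset.mem_product.mp hq'
      obtain ⟨a, ha, rfl⟩ := (hY η).mp hη
      obtain ⟨b, hb, rfl⟩ := (hY η').mp hη'
      obtain rfl : i = j := (le_total i j).elim
        (fun h => hne i j h (Finset.mem_range.mp hj) a ha b hb e)
        fun h => (hne j i h (Finset.mem_range.mp hi) b hb a ha e.symm).symm
      exact Prod.ext rfl (MulAction.injective _ e)
    · intro η hη
      obtain ⟨g, hg, rfl⟩ := (hO' η).mp hη
      rw [← hR5 z hzT hzR, sup_comm] at hg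
      obtain ⟨a, ha, r, hr, rfl⟩ := (H1.mem_sup_of_le_normalizer_right
        (zpowers_le.mpr (hR3 hzT))).mp hg
      obtain ⟨m, rfl⟩ := (mem_powers_iff_mem_zpowers.mpr ha : a ∈ Submonoid.powers z)
      refine ⟨(m % p, ((z ^ p) ^ (m / p) * r) • ξ), Finset.mem_product.mpr
        ⟨Finset.mem_range.mpr (Nat.mod_lt _ hp.out.pos),
          (hY _).mpr ⟨_, R.mul_mem (R.pow_mem hzp _) hr, rfl⟩⟩, ?_⟩
      simp only
      rw [← mul_smul, ← mul_assoc, ← pow_mul, ← pow_add, Nat.mod_add_div]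
  have heR := engel_mem (hR3 hzT) (p - 1) hxR
  have heW : (fun y : G => y⁻¹ * z⁻¹ * y * z)^[p - 1] x ∈ W := by
    obtain ⟨m, hm⟩ : ∃ m, p - 1 = m + 1 := ⟨p - 2, by have := hp.out.two_le; omega⟩
    rw [hm, Function.iterate_succ_apply']
    exact W.mul_mem (conj_mem_of_mem_normalizer' (hSW (hTS (hR2.le
      (engel_mem (hR3 hzT) m hxR)))) (W.inv_mem hz)) hz
  refine ⟨x, hx, z, hz, R.subgroupOf W, ⟨fun e => hzR (e.ge (mem_top (⟨z, hz⟩ : W))),
    fun K hK => ?_⟩, ⟨⟨_, heW⟩, heR, rfl⟩, ?_⟩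
  · obtain ⟨w, hw, hwR⟩ := SetLike.exists_of_lt hK
    refine eq_top_iff.mpr fun v _ => ?_
    have h1 : (v : G) ∈ T := mem_sup_left v.2
    rw [← hR5 w (mem_sup_left w.2) hwR] at h1
    obtain ⟨r, hr, _, ⟨k, rfl⟩, e⟩ := (H1.mem_sup_of_le_normalizer_left
      (zpowers_le.mpr (hR3 (mem_sup_left w.2)))).mp h1
    have h2 : v * (w ^ k)⁻¹ ∈ R.subgroupOf W := by
      rw [mem_subgroupOf, coe_mul, ← e]; simpa using hr
    simpa using K.mul_mem (hK.le h2) (K.zpow_mem hw k)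
  · rintro ⟨_, ⟨u, hu, rfl⟩, e⟩
    let f : R.subgroupOf W →* Multiplicative (ZMod p) :=
      MonoidHom.mk' (fun a => ψ a) fun a b => hψ _ a.2 _ b.2
    have h1 : frattini (R.subgroupOf W) ≤ f.ker :=
      frattini_le_of (p := p) (Abelianization.commutator_subset_ker f) fun a => by
        rw [MonoidHom.mem_ker, map_pow]
        exact Multiplicative.toAdd.injective (by simp)
    exact hO O hO' (key ▸ e ▸ h1 hu)

theorem fix_of_weaklyClosed (S : Sylow p G) {W : Subgroup G} (hW : IsWeaklyClosed W S) :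
    (S : Subgroup G) ≤ normalizer (W : Set G) ∧
      ∀ g : G, (∀ w ∈ W, g⁻¹ * w * g ∈ normalizer (W : Set G)) → g ∈ normalizer (W : Set G) := by
  have h1 : (S : Subgroup G) ≤ normalizer (W : Set G) := fun s hs => map_conj_eq_iff.mp
    (hW.2 s (by rintro _ ⟨w, hw, rfl⟩; exact mul_mem (mul_mem hs (hW.1 hw)) (inv_mem hs)))
  refine ⟨h1, fun g hg => ?_⟩
  obtain ⟨h, hh, h2⟩ := exists_conj_le_of_sylowIn S.isPGroup' (sylow_not_dvd_relIndex S h1)
    ((S.isPGroup'.to_le hW.1).map (MulAut.conj g⁻¹).toMonoidHom)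
    (by rintro _ ⟨w, hw, rfl⟩; simpa using hg w hw)
  have h3 := map_conj_eq_iff.mp (hW.2 (g * h)⁻¹ (by
    rintro _ ⟨w, hw, rfl⟩
    simpa [mul_assoc] using h2 _ ⟨w, hw, rfl⟩))
  rwa [inv_mem_iff, mul_mem_cancel_right hh] at h3

/-- Tate's theorem: control of the focal subgroup gives control of `O^p`. -/
theorem res_eq_of_commutator (S : Sylow p G) {H : Subgroup G} (hSH : (S : Subgroup G) ≤ H)
    (h : (S : Subgroup G) ⊓ commutator G ≤ ⁅H, H⁆) :
    (pResidual p H).map H.subtype = pResidual p G ⊓ H := by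
  have hS : H12.SylIn p (S : Subgroup G) H := (H12.sylIn_top S).of_le hSH le_top
  have h1 := tate S (R := (S : Subgroup G) ⊓ H12.res p H)
    (inf_le_inf_left _ (map_subtype_pResidual_le H))
    (H1.le_normalizer_inf le_normalizer (hSH.trans (H12.le_normalizer_res H)))
    (((le_inf inf_le_left ((le_inf inf_le_left (inf_pResidual_le_commutator S)).trans h)).trans
      hS.inf_commutator_le_res).trans (by
        rw [sup_comm]
        exact sup_le_sup_left (commutator_le_map_frattini S.isPGroup') _))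
  refine le_antisymm (le_inf (map_subtype_pResidual_le H) (map_subtype_le _)) fun g hg => ?_
  obtain ⟨k, hk, t, ht, rfl⟩ := hS.exists_mul_res hg.2
  refine mul_mem hk (h1.le ⟨ht, ?_⟩).2
  exact (mul_mem_cancel_left (map_subtype_pResidual_le H hk)).mp hg.1

end Engel

end H3
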