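import Cfsg.Prelude.Def_JordanBlocks

/-! The order of the centralizer of a unipotent matrix in the general linear group. -/

set_option autoImplicit false

namespace Cfsg.Agent.H3.JCent

open Matrix Finset

variable {F : Type*} [Field F] {t : ℕ} {d : Fin t → ℕ}

variable (F d) in
/-- The nilpotent part of the Jordan matrix. -/
def NN : Matrix ((k : Fin t) × Fin (d k)) ((k : Fin t) × Fin (d k)) F :=
  of fun a b => if a.1 = b.1 ∧ (a.2 : ℕ) = b.2 + 1 then 1 else 0

theorem jordan_eq : Cfsg.jordanTypeMatrix d F = 1 + NN F d := by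
  ext ⟨l, i⟩ ⟨k, j⟩
  by_cases h : l = k
  · subst h
    rw [Cfsg.jordanTypeMatrix, blockDiagonal'_apply_eq, Matrix.add_apply, one_apply]
    simp only [Cfsg.jordanBlock, NN, of_apply, true_and, Sigma.mk.injEq, heq_eq_eq, Fin.ext_iff]
    split_ifs <;> first | omega | simp
  · rw [Cfsg.jordanTypeMatrix, blockDiagonal'_apply_ne _ _ _ h, Matrix.add_apply, one_apply_ne
      (fun h' => h (congrArg Sigma.fst h'))]
    simp [NN, h]

/-- Extension by zero of the coordinates of a vector. -/
def ex (v : (k : Fin t) × Fin (d k) → F) (l : Fin t) (i : ℕ) : F :=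
  if h : i < d l then v ⟨l, ⟨i, h⟩⟩ else 0

theorem ex_val (v : (k : Fin t) × Fin (d k) → F) (l : Fin t) (i : Fin (d l)) :
    ex v l i = v ⟨l, i⟩ := by simp [ex]

theorem NN_mulVec (v : (k : Fin t) × Fin (d k) → F) (a : (k : Fin t) × Fin (d k)) :
    (NN F d *ᵥ v) a = if 1 ≤ (a.2 : ℕ) then ex v a.1 (a.2 - 1) else 0 := by
  obtain ⟨l, i⟩ := a
  simp only [mulVec, dotProduct, NN, of_apply, ite_mul, one_mul, zero_mul]
  split_ifs with h
  · have h1 : (i : ℕ) - 1 < d l := by omega
    rw [Finset.sum_eq_single ⟨l, ⟨i - 1, h1⟩⟩, if_pos ⟨rfl, by simp; omega⟩, ex, dif_pos h1]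
    · rintro ⟨k, j⟩ - hb
      refine if_neg ?_
      rintro ⟨rfl, h2⟩
      apply hb
      congr 1
      exact Fin.ext (by simp at h2 ⊢; omega)
    · simp
  · exact Finset.sum_eq_zero fun b _ => if_neg fun h' => h (by omega)

theorem NN_pow_mulVec (n : ℕ) (v : (k : Fin t) × Fin (d k) → F) (a : (k : Fin t) × Fin (d k)) :
    (NN F d ^ n *ᵥ v) a = if n ≤ (a.2 : ℕ) then ex v a.1 (a.2 - n) else 0 := by
  induction n generalizing a with
  | zero => simp [ex_val]
  | succ n ih =>
    obtain ⟨l, i⟩ := a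
    rw [pow_succ', ← mulVec_mulVec, NN_mulVec]
    by_cases h : 1 ≤ (i : ℕ)
    · have h1 : (i : ℕ) - 1 < d l := by omega
      rw [if_pos h, ex, dif_pos h1, ih]
      simp only
      by_cases h2 : n + 1 ≤ (i : ℕ)
      · rw [if_pos (by omega), if_pos h2]; congr 1; omega
      · rw [if_neg (by omega), if_neg h2]
    · rw [if_neg h, if_neg (by simp only; omega)]

theorem mul_NN (A : Matrix ((k : Fin t) × Fin (d k)) ((k : Fin t) × Fin (d k)) F)
    (a b : (k : Fin t) × Fin (d k)) : (A * NN F d) a b = ex (A a) b.1 (b.2 + 1) := by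
  obtain ⟨k, j⟩ := b
  simp only [mul_apply, NN, of_apply, mul_ite, mul_one, mul_zero, ex]
  split_ifs with h
  · rw [Finset.sum_eq_single ⟨k, ⟨j + 1, h⟩⟩, if_pos ⟨rfl, rfl⟩]
    · rintro ⟨l, i⟩ - hb
      refine if_neg ?_
      rintro ⟨rfl, h2⟩
      apply hb
      congr 1
      exact Fin.ext h2
    · simp
  · refine Finset.sum_eq_zero ?_
    rintro ⟨l, i⟩ -
    refine if_neg ?_
    rintro ⟨rfl, h2⟩
    exact h (h2 ▸ i.2)

theorem ker_iff (n : ℕ) (v : (k : Fin t) × Fin (d k) → F) :
    NN F d ^ n *ᵥ v = 0 ↔ ∀ a : (k : Fin t) × Fin (d k), a.2 + n < d a.1 → v a = 0 := by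
  constructor
  · rintro h ⟨l, i⟩ hi
    have := congrFun h ⟨l, ⟨i + n, hi⟩⟩
    rw [NN_pow_mulVec, if_pos (by simp)] at this
    simpa [ex_val] using this
  · intro h
    ext ⟨l, i⟩
    rw [NN_pow_mulVec]
    split_ifs with h1
    · have h2 : (i : ℕ) - n < d l := by omega
      rw [ex, dif_pos h2]
      exact h _ (by simp only at h1 ⊢; omega)
    · rfl

theorem card_ker [Fintype F] (n : ℕ) :
    Nat.card {v : (k : Fin t) × Fin (d k) → F // NN F d ^ n *ᵥ v = 0} =
      Fintype.card F ^ ∑ l, min n (d l) := by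
  simp only [ker_iff]
  rw [Nat.card_congr (Equiv.subtypePiEquivPi
    (p := fun (a : (k : Fin t) × Fin (d k)) (x : F) => a.2 + n < d a.1 → x = 0)), Nat.card_pi,
    ← Finset.prod_pow_eq_pow_sum, Fintype.prod_sigma]
  refine Finset.prod_congr rfl fun l _ => ?_
  have h1 : ∀ i : Fin (d l), Nat.card {x : F // i + n < d l → x = 0} =
      if d l - n ≤ (i : ℕ) then Fintype.card F else 1 := by
    intro i
    split_ifs with h
    · rw [← Nat.card_eq_fintype_card]
      exact Nat.card_congr (Equiv.subtypeUnivEquiv fun x h' => by omega)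
    · have : (i : ℕ) + n < d l := by omega
      simp [this]
  simp only [h1]
  rw [Fin.prod_univ_eq_prod_range (fun i => if d l - n ≤ i then Fintype.card F else 1),
    ← Finset.prod_filter, Finset.prod_const]
  congr 1
  have : (Finset.range (d l)).filter (d l - n ≤ ·) = Finset.Ico (d l - n) (d l) := by
    ext i; simp [and_comm]
  rw [this, Nat.card_Ico]
  omega

variable (F d) in
/-- The commutant of the nilpotent part. -/
def CC : AddSubgroup (Matrix ((k : Fin t) × Fin (d k)) ((k : Fin t) × Fin (d k)) F) where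
  carrier := {A | A * NN F d = NN F d * A}
  zero_mem' := by simp
  add_mem' := fun {a b} (ha : _ = _) (hb : _ = _) => by
    change (a + b) * _ = _ * (a + b)
    rw [add_mul, mul_add, ha, hb]
  neg_mem' := fun {a} (ha : _ = _) => by
    change (-a) * _ = _ * (-a)
    rw [neg_mul, mul_neg, ha]

/-- The matrix with prescribed images of the cyclic generators. -/
def mk (m : Fin t → (k : Fin t) × Fin (d k) → F) :
    Matrix ((k : Fin t) × Fin (d k)) ((k : Fin t) × Fin (d k)) F :=
  of fun a b => (NN F d ^ (b.2 : ℕ) *ᵥ m b.1) a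

theorem mk_mem {m : Fin t → (k : Fin t) × Fin (d k) → F} (h : ∀ k, NN F d ^ d k *ᵥ m k = 0) :
    mk m ∈ CC F d := by
  change _ = _
  ext a ⟨k, j⟩
  have : (NN F d * mk m) a ⟨k, j⟩ = (NN F d ^ ((j : ℕ) + 1) *ᵥ m k) a := by
    rw [pow_succ', ← mulVec_mulVec]; rfl
  rw [this, mul_NN, ex]
  split_ifs with h1
  · rfl
  · have : (j : ℕ) + 1 = d k := by have := j.2; simp only at h1; omega
    rw [this, h]; rfl

variable (hd : ∀ k, 1 ≤ d k)

/-- The index of the cyclic generator of a block. -/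
def e0 (k : Fin t) : (k : Fin t) × Fin (d k) := ⟨k, ⟨0, hd k⟩⟩

theorem col_eq {A : Matrix ((k : Fin t) × Fin (d k)) ((k : Fin t) × Fin (d k)) F}
    (hA : A ∈ CC F d) (k : Fin t) (j : ℕ) (a : (k : Fin t) × Fin (d k)) :
    (NN F d ^ j *ᵥ fun b => A b (e0 hd k)) a = ex (A a) k j := by
  induction j generalizing a with
  | zero => rw [ex, dif_pos (show 0 < d k from hd k), pow_zero, one_mulVec]; rfl
  | succ j ih =>
    have h1 : (NN F d ^ j *ᵥ fun b => A b (e0 hd k)) = fun b => ex (A b) k j := funext ih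
    rw [pow_succ', ← mulVec_mulVec, h1]
    by_cases h : j < d k
    · have h2 := congrFun (congrFun (hA : _ = _) a) ⟨k, ⟨j, h⟩⟩
      rw [mul_NN] at h2
      rw [h2]
      simp only [ex, dif_pos h]
      rfl
    · simp only [ex, dif_neg h, dif_neg (show ¬ j + 1 < d k by omega)]
      exact congrFun (mulVec_zero _) a

theorem col_ker {A : Matrix ((k : Fin t) × Fin (d k)) ((k : Fin t) × Fin (d k)) F}
    (hA : A ∈ CC F d) (k : Fin t) : (NN F d ^ d k *ᵥ fun b => A b (e0 hd k)) = 0 := by
  ext a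
  rw [col_eq hd hA, ex, dif_neg (lt_irrefl _)]; rfl

include hd in
theorem card_CC [Fintype F] :
    Nat.card (CC F d) = Fintype.card F ^ ∑ k, ∑ l, min (d k) (d l) := by
  let E : CC F d ≃ ∀ k, {v : (k : Fin t) × Fin (d k) → F // NN F d ^ d k *ᵥ v = 0} :=
    { toFun := fun A k => ⟨fun b => A.1 b (e0 hd k), col_ker hd A.2 k⟩
      invFun := fun m => ⟨mk fun k => (m k).1, mk_mem fun k => (m k).2⟩
      left_inv := fun A => Subtype.ext (by
        ext a ⟨k, j⟩
        exact (col_eq hd A.2 k j a).trans (ex_val _ _ _))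
      right_inv := fun m => by
        ext k a
        simp [mk, e0] }
  rw [Nat.card_congr E, Nat.card_pi, ← Finset.prod_pow_eq_pow_sum]
  simp only [card_ker]

/-- The action on the quotient by the image of the nilpotent part. -/
def BB (A : Matrix ((k : Fin t) × Fin (d k)) ((k : Fin t) × Fin (d k)) F) :
    Matrix (Fin t) (Fin t) F := of fun l k => A (e0 hd l) (e0 hd k)

theorem row_sum (f : (k : Fin t) × Fin (d k) → F) (h : ∀ a, (a.2 : ℕ) ≠ 0 → f a = 0) :
    ∑ a, f a = ∑ k, f (e0 hd k) := by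
  rw [Fintype.sum_sigma]
  refine Finset.sum_congr rfl fun k _ => Finset.sum_eq_single _ (fun j _ hj => h _ fun h' => ?_)
    (by simp)
  exact hj (Fin.ext h')

theorem row_zero {A : Matrix ((k : Fin t) × Fin (d k)) ((k : Fin t) × Fin (d k)) F}
    (hA : A ∈ CC F d) (l : Fin t) (a : (k : Fin t) × Fin (d k)) (h : (a.2 : ℕ) ≠ 0) :
    A (e0 hd l) a = 0 := by
  obtain ⟨k, j⟩ := a
  rw [← ex_val (A (e0 hd l)), ← col_eq hd hA, NN_pow_mulVec, if_neg]
  simp only [e0] at h ⊢
  omega

theorem isUnit_iff {A : Matrix ((k : Fin t) × Fin (d k)) ((k : Fin t) × Fin (d k)) F}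
    (hA : A ∈ CC F d) : IsUnit A ↔ IsUnit (BB hd A) := by
  constructor
  · rintro ⟨u, rfl⟩
    refine IsUnit.of_mul_eq_one (BB hd (u⁻¹).1) ?_
    ext l k
    have h1 := congrFun (congrFun u.mul_inv (e0 hd l)) (e0 hd k)
    rw [mul_apply, row_sum hd _ fun a ha => by rw [row_zero hd hA l a ha, zero_mul]] at h1
    rw [mul_apply]
    refine h1.trans ?_
    by_cases h : l = k
    · subst h; simp
    · rw [one_apply_ne h, one_apply_ne fun h' => h (congrArg Sigma.fst h')]
  · intro hB
    rw [← mulVec_surjective_iff_isUnit] at hB ⊢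
    have step : ∀ v, ∃ w u, v = A *ᵥ w + NN F d *ᵥ u := by
      intro v
      obtain ⟨c, hc⟩ := hB fun l => v (e0 hd l)
      let w : (k : Fin t) × Fin (d k) → F := fun a => c a.1
      refine ⟨w, fun a => ex (v - A *ᵥ w) a.1 (a.2 + 1), ?_⟩
      ext ⟨l, i⟩
      rw [Pi.add_apply, NN_mulVec]
      split_ifs with h
      · have h1 : (i : ℕ) - 1 < d l := by omega
        rw [ex, dif_pos h1]
        simp only at h ⊢
        rw [Nat.sub_add_cancel h, ex_val]; simp
      · have : (⟨l, i⟩ : (k : Fin t) × Fin (d k)) = e0 hd l := by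
          simp only [e0]; congr 1; exact Fin.ext (by simp only at h ⊢; omega)
        rw [this, add_zero, ← congrFun hc l, mulVec, dotProduct, mulVec, dotProduct,
          row_sum hd _ fun a ha => by rw [row_zero hd hA l a ha, zero_mul]]
        rfl
    have iter : ∀ n : ℕ, ∀ v, ∃ w u, v = A *ᵥ w + NN F d ^ n *ᵥ u := by
      intro n
      induction n with
      | zero => exact fun v => ⟨0, v, by simp⟩
      | succ n ih =>
        intro v
        obtain ⟨w, u, h⟩ := ih v
        obtain ⟨w', u', h'⟩ := step u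
        refine ⟨w + NN F d ^ n *ᵥ w', u', ?_⟩
        have hc : A * NN F d ^ n = NN F d ^ n * A := ((show Commute A _ from hA).pow_right n).eq
        rw [h, h', mulVec_add, mulVec_add, mulVec_mulVec, mulVec_mulVec, mulVec_mulVec, hc,
          pow_succ, add_assoc]
    intro v
    obtain ⟨w, u, h⟩ := iter (univ.sup d) v
    refine ⟨w, ?_⟩
    rw [h, (ker_iff _ _).2 fun a ha => ?_, add_zero]
    have := Finset.le_sup (f := d) (mem_univ a.1)
    omega

theorem BB_tri {A : Matrix ((k : Fin t) × Fin (d k)) ((k : Fin t) × Fin (d k)) F}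
    (hA : A ∈ CC F d) : (BB hd A).BlockTriangular d := fun l k h =>
  (ker_iff _ _).1 (col_ker hd hA k) (e0 hd l) (by simpa [e0] using h)

/-- The diagonal blocks. -/
def phi : CC F d →+ ∀ a : range (univ.sup d + 1), Matrix {k // d k = a} {k // d k = a} F where
  toFun A a := (BB hd A.1).toSquareBlock d a
  map_zero' := rfl
  map_add' _ _ := rfl

theorem phi_surj : Function.Surjective (phi (F := F) hd) := by
  intro M
  have hr : ∀ k, d k ∈ range (univ.sup d + 1) := fun k =>
    mem_range.2 (Nat.lt_succ_of_le (Finset.le_sup (f := d) (mem_univ k)))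
  let m : Fin t → (k : Fin t) × Fin (d k) → F := fun k a =>
    if h : d a.1 = d k then M ⟨d k, hr k⟩ ⟨a.1, h⟩ ⟨k, rfl⟩ else 0
  refine ⟨⟨mk m, mk_mem fun k => (ker_iff _ _).2 fun a ha => dif_neg (by omega)⟩, ?_⟩
  funext ⟨a, ha⟩
  refine Matrix.ext ?_
  rintro ⟨l, hl⟩ ⟨k, hk⟩
  obtain rfl : d k = a := hk
  change (NN F d ^ 0 *ᵥ m k) (e0 hd l) = _
  rw [pow_zero, one_mulVec]
  exact dif_pos hl

theorem isUnit_iff' {A : CC F d} : IsUnit A.1 ↔ ∀ a, IsUnit (phi hd A a) := by
  rw [isUnit_iff hd A.2, isUnit_iff_isUnit_det, (BB_tri hd A.2).det, isUnit_iff_ne_zero,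
    Finset.prod_ne_zero_iff]
  simp only [isUnit_iff_isUnit_det, isUnit_iff_ne_zero]
  constructor
  · rintro h ⟨a, ha⟩
    by_cases h1 : a ∈ univ.image d
    · exact h a h1
    · have : IsEmpty {k // d k = a} := ⟨fun k => h1 (mem_image.2 ⟨k.1, mem_univ _, k.2⟩)⟩
      rw [det_isEmpty]; exact one_ne_zero
  · intro h a ha
    obtain ⟨k, -, rfl⟩ := mem_image.1 ha
    exact h ⟨d k, mem_range.2 (Nat.lt_succ_of_le (Finset.le_sup (f := d) (mem_univ k)))⟩

theorem card_fib {A B : Type*} [AddGroup A] [AddGroup B] (f : A →+ B) (hf : Function.Surjective f)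
    (p : B → Prop) : Nat.card {a // p (f a)} = Nat.card f.ker * Nat.card {b // p b} := by
  rw [← Nat.card_prod]
  let s := Function.surjInv hf
  have hs : ∀ b, f (s b) = b := Function.surjInv_eq hf
  exact Nat.card_congr
    { toFun := fun a => (⟨a.1 - s (f a.1), by simp [hs]⟩, ⟨f a.1, a.2⟩)
      invFun := fun x => ⟨x.1.1 + s x.2.1, by
        rw [map_add, hs, (AddMonoidHom.mem_ker.1 x.1.2), zero_add]; exact x.2.2⟩
      left_inv := fun a => by simp
      right_inv := fun x => by
        have := AddMonoidHom.mem_ker.1 x.1.2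
        ext <;> simp [hs, this] }

theorem card_units [Fintype F] (S : Type*) [Fintype S] [DecidableEq S] :
    Nat.card {M : Matrix S S F // IsUnit M} = ∏ j : Fin (Fintype.card S),
      (Fintype.card F ^ Fintype.card S - Fintype.card F ^ (j : ℕ)) := by
  rw [← card_GL_field, Nat.card_congr (Units.mapEquiv
    (reindexAlgEquiv F F (Fintype.equivFin S).symm).toMulEquiv).toEquiv]
  exact Nat.card_congr
    { toFun := fun M => M.2.unit
      invFun := fun u => ⟨u.1, u.isUnit⟩
      left_inv := fun M => rfl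
      right_inv := fun u => Units.ext rfl }

theorem sum_min (d : Fin t → ℕ) (s : Finset ℕ) (hs : ∀ k, d k ∈ s) :
    ∑ k, ∑ l, min (d k) (d l) = ∑ i ∈ s, ∑ j ∈ s,
      min i j * #{k | d k = i} * #{k | d k = j} := by
  have h : ∀ f : ℕ → ℕ, ∑ k, f (d k) = ∑ i ∈ s, f i * #{k | d k = i} := fun f => by
    rw [← Finset.sum_fiberwise_of_maps_to (s := univ) (t := s) (g := d) fun k _ => hs k]
    refine Finset.sum_congr rfl fun i _ => ?_
    rw [Finset.sum_congr rfl fun k hk => by rw [(mem_filter.1 hk).2], Finset.sum_const,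
      smul_eq_mul, mul_comm]
  rw [h fun i => ∑ l, min i (d l)]
  refine Finset.sum_congr rfl fun i _ => ?_
  rw [h fun j => min i j, Finset.sum_mul]
  exact Finset.sum_congr rfl fun j _ => by ring

theorem sum_sym (s : Finset ℕ) (a : ℕ → ℕ) (h0 : a 0 = 0) :
    ∑ i ∈ s, ∑ j ∈ s, min i j * a i * a j =
      (2 * (∑ i ∈ s, ∑ j ∈ s, if i < j then i * a i * a j else 0) + ∑ i ∈ s, (i - 1) * a i ^ 2) +
        ∑ i ∈ s, a i * a i := by
  have h1 : ∀ i j, min i j * a i * a j = (if i < j then i * a i * a j else 0) +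
      (if j < i then j * a j * a i else 0) + if i = j then i * a i * a i else 0 := by
    intro i j
    rcases lt_trichotomy i j with h | rfl | h
    · rw [if_pos h, if_neg h.not_gt, if_neg h.ne, min_eq_left h.le]; ring
    · simp
    · rw [if_neg h.not_gt, if_pos h, if_neg h.ne', min_eq_right h.le]; ring
  simp only [h1, Finset.sum_add_distrib]
  rw [Finset.sum_comm (f := fun i j => if j < i then j * a j * a i else 0),
    add_assoc (2 * _) _ (∑ i ∈ s, a i * a i), ← Finset.sum_add_distrib (f := fun i => (i - 1) * _),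
    two_mul]
  congr 1
  refine Finset.sum_congr rfl fun i hi => ?_
  rw [Finset.sum_ite_eq, if_pos hi]
  rcases i with _ | i
  · simp [h0]
  · rw [Nat.add_sub_cancel]; ring

include hd in
theorem main [Fintype F] :
    Nat.card {g : GL ((k : Fin t) × Fin (d k)) F //
      g.1 * Cfsg.jordanTypeMatrix d F = Cfsg.jordanTypeMatrix d F * g.1} =
    Fintype.card F ^ (2 * (∑ i ∈ range (univ.sup d + 1), ∑ j ∈ range (univ.sup d + 1),
      if i < j then i * #{k | d k = i} * #{k | d k = j} else 0) +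
      ∑ i ∈ range (univ.sup d + 1), (i - 1) * #{k | d k = i} ^ 2) *
    ∏ i ∈ range (univ.sup d + 1), ∏ j : Fin #{k | d k = i},
      (Fintype.card F ^ #{k | d k = i} - Fintype.card F ^ (j : ℕ)) := by
  have hr : ∀ k, d k ∈ range (univ.sup d + 1) := fun k =>
    mem_range.2 (Nat.lt_succ_of_le (Finset.le_sup (f := d) (mem_univ k)))
  have hc : ∀ A : Matrix ((k : Fin t) × Fin (d k)) ((k : Fin t) × Fin (d k)) F,
      A * Cfsg.jordanTypeMatrix d F = Cfsg.jordanTypeMatrix d F * A ↔ A ∈ CC F d := fun A => by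
    rw [jordan_eq, mul_add, add_mul, mul_one, one_mul, add_right_inj]; rfl
  have h1 : Nat.card {g : GL ((k : Fin t) × Fin (d k)) F //
      g.1 * Cfsg.jordanTypeMatrix d F = Cfsg.jordanTypeMatrix d F * g.1} =
      Nat.card {A : CC F d // ∀ a, IsUnit (phi hd A a)} := Nat.card_congr
    { toFun := fun g => ⟨⟨g.1.1, (hc _).1 g.2⟩, (isUnit_iff' hd).1 g.1.isUnit⟩
      invFun := fun A => ⟨((isUnit_iff' hd).2 A.2).unit, (hc _).2 A.1.2⟩
      left_inv := fun g => Subtype.ext (Units.ext rfl)
      right_inv := fun A => rfl }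
  have hS : ∀ i, Fintype.card {k // d k = i} = #{k | d k = i} := fun i => Fintype.card_subtype _
  have h2 := card_fib (phi (F := F) hd) (phi_surj hd) fun _ => True
  rw [Nat.card_congr (Equiv.subtypeUnivEquiv fun _ => trivial),
    Nat.card_congr (Equiv.subtypeUnivEquiv fun _ => trivial), card_CC hd, Nat.card_pi,
    sum_min d _ hr, sum_sym _ (fun i => #{k | d k = i}) (by
      rw [card_eq_zero, filter_eq_empty_iff]
      intro k _ h
      have := hd k
      omega), pow_add] at h2
  have h3 : ∏ a : range (univ.sup d + 1), Nat.card (Matrix {k // d k = a} {k // d k = a} F) =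
      Fintype.card F ^ ∑ i ∈ range (univ.sup d + 1), #{k | d k = i} * #{k | d k = i} := by
    rw [← Finset.prod_pow_eq_pow_sum, ← Finset.prod_coe_sort (range (univ.sup d + 1))]
    refine Finset.prod_congr rfl fun a _ => ?_
    rw [← hS, ← Fintype.card_prod, ← Fintype.card_fun, ← Nat.card_eq_fintype_card]
    exact Nat.card_congr (Equiv.curry _ _ _).symm
  rw [h3] at h2
  rw [h1, card_fib (phi (F := F) hd) (phi_surj hd) fun M => ∀ a, IsUnit (M a),
    ← Nat.eq_of_mul_eq_mul_right (by positivity) h2,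
    Nat.card_congr (Equiv.subtypePiEquivPi (p := fun (a : range (univ.sup d + 1))
      (M : Matrix {k // d k = a} {k // d k = a} F) => IsUnit M)), Nat.card_pi,
    ← Finset.prod_coe_sort (range (univ.sup d + 1))]
  congr 1
  refine Finset.prod_congr rfl fun a _ => ?_
  rw [card_units, hS]

end Cfsg.Agent.H3.JCent
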