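import Cfsg.Agent.H3.JCent
import Cfsg.Agent.H14.Wall2
import Cfsg.Agent.S0277

/-! The order of the centralizer of a unipotent element of the general unitary group. -/

set_option autoImplicit false

namespace Cfsg.Agent.H3.JCentU

open Matrix Finset H14.Wall Cfsg.Agent.H3.JCent

theorem card_eq_mul {Γ Y : Type*} [Group Γ] (U : Subgroup Γ) (f : Γ → Y)
    (hf : Function.Surjective f) (h : ∀ x y, f x = f y ↔ x * y⁻¹ ∈ U) :
    Nat.card Γ = Nat.card U * Nat.card Y := by
  rw [← Nat.card_prod]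
  let s := Function.surjInv hf
  have hs : ∀ b, f (s b) = b := Function.surjInv_eq hf
  have h1 : ∀ (u : U) y, f (u * s y) = y := fun u y => by
    conv_rhs => rw [← hs y]
    rw [h]; simp
  exact Nat.card_congr
    { toFun := fun x => (⟨x * (s (f x))⁻¹, (h _ _).1 (hs _).symm⟩, f x)
      invFun := fun z => z.1 * s z.2
      left_inv := fun x => by simp
      right_inv := fun z => by ext <;> simp [h1] }

variable {K : Type*} [Field K] {σ : K →+* K}

theorem ct_mul' {ι κ μ : Type*} [Fintype κ] (A : Matrix ι κ K) (B : Matrix κ μ K) :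
    ct σ (A * B) = ct σ B * ct σ A := by
  ext i j
  simp [ct, mul_apply, mul_comm]

theorem ct_ct (hσ : ∀ a, σ (σ a) = a) {ι κ : Type*} (A : Matrix ι κ K) : ct σ (ct σ A) = A := by
  ext i j
  simp [ct, hσ]

theorem ct_add' {ι κ : Type*} (A B : Matrix ι κ K) : ct σ (A + B) = ct σ A + ct σ B := by
  ext i j
  simp [ct]

theorem isUnit_ct {ι : Type*} [Fintype ι] [DecidableEq ι] {A : Matrix ι ι K} (h : IsUnit A) :
    IsUnit (ct σ A) := by
  rw [isUnit_iff_isUnit_det] at h ⊢
  rw [det_ct]; exact h.map σ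

theorem canc {ι κ μ : Type*} [Fintype ι] [Fintype κ] [DecidableEq κ] {P : Matrix κ ι K}
    {Q : Matrix ι κ K} (h : P * Q = 1) (M : Matrix κ μ K) : P * (Q * M) = M := by
  rw [← Matrix.mul_assoc, h, Matrix.one_mul]

theorem card_norm [Finite K] (hσ : ∀ a, σ (σ a) = a) (hσ1 : σ ≠ RingHom.id K) {ι κ : Type*}
    [Fintype ι] [DecidableEq ι] [Fintype κ] [DecidableEq κ] {P : Matrix κ ι K} {Q : Matrix ι κ K}
    (hPQ : P * Q = 1) (hQP : Q * P = 1) {J : Matrix ι ι K} {u : Matrix κ κ K}
    (hu : ct σ u * u = 1) (hJ : P * J = u * P) :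
    Nat.card {A : GL ι K // A.1 * J = J * A.1} =
      Nat.card {X : GL κ K // X.1 * u = u * X.1 ∧ ct σ X.1 * X.1 = 1} *
        Nat.card {G : Matrix ι ι K // ct σ J * G * J = G ∧ ct σ G = G ∧ IsUnit G} := by
  have hJ' : J * Q = Q * u := by
    rw [← Matrix.one_mul (J * Q), ← hQP, Matrix.mul_assoc, ← Matrix.mul_assoc P, hJ,
      Matrix.mul_assoc, hPQ, Matrix.mul_one]
  have hu' : u * ct σ u = 1 := mul_eq_one_comm.1 hu
  have cPQ : ct σ Q * ct σ P = 1 := by rw [← ct_mul', hPQ, ct_one]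
  have cQP : ct σ P * ct σ Q = 1 := by rw [← ct_mul', hQP, ct_one]
  let Γ : Subgroup (GL κ K) :=
    { carrier := {X | X.1 * u = u * X.1}
      one_mem' := by simp
      mul_mem' := fun {a b} (ha : _ = _) (hb : _ = _) => by
        change (a * b).1 * u = u * (a * b).1
        rw [Units.val_mul, mul_assoc, hb, ← mul_assoc, ha, mul_assoc]
      inv_mem' := fun {a} (ha : _ = _) => (Commute.units_inv_left (ha : Commute a.1 u)).eq }
  let U : Subgroup Γ :=
    { carrier := {X | ct σ X.1.1 * X.1.1 = 1}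
      one_mem' := by simp [ct_one]
      mul_mem' := fun {a b} ha hb => U_mul ha hb
      inv_mem' := fun {a} (ha : _ = _) => by
        change ct σ (a.1⁻¹).1 * (a.1⁻¹).1 = 1
        have h1 : (a.1⁻¹).1 = ct σ a.1.1 := Units.inv_eq_of_mul_eq_one_left ha
        rw [h1]; exact U_ct hσ ha }
  have h1 : Nat.card {A : GL ι K // A.1 * J = J * A.1} = Nat.card Γ := Nat.card_congr
    { toFun := fun A => ⟨⟨P * A.1.1 * Q, P * (A.1⁻¹).1 * Q, by
          simp only [Matrix.mul_assoc, canc hQP]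
          rw [← Matrix.mul_assoc A.1.1, A.1.mul_inv, Matrix.one_mul, hPQ], by
          simp only [Matrix.mul_assoc, canc hQP]
          rw [← Matrix.mul_assoc _ A.1.1, A.1.inv_mul, Matrix.one_mul, hPQ]⟩, by
          change P * A.1.1 * Q * u = u * (P * A.1.1 * Q)
          rw [Matrix.mul_assoc, ← hJ', ← Matrix.mul_assoc, Matrix.mul_assoc P, A.2,
            ← Matrix.mul_assoc, hJ]
          simp only [Matrix.mul_assoc]⟩
      invFun := fun X => ⟨⟨Q * X.1.1 * P, Q * (X.1⁻¹).1 * P, by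
          simp only [Matrix.mul_assoc, canc hPQ]
          rw [← Matrix.mul_assoc X.1.1, X.1.mul_inv, Matrix.one_mul, hQP], by
          simp only [Matrix.mul_assoc, canc hPQ]
          rw [← Matrix.mul_assoc _ X.1.1, X.1.inv_mul, Matrix.one_mul, hQP]⟩, by
          change Q * X.1.1 * P * J = J * (Q * X.1.1 * P)
          rw [Matrix.mul_assoc, hJ, ← Matrix.mul_assoc, Matrix.mul_assoc Q, (X.2 : _ = _),
            ← Matrix.mul_assoc, ← hJ']
          simp only [Matrix.mul_assoc]⟩
      left_inv := fun A => Subtype.ext (Units.ext (by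
          simp only [Matrix.mul_assoc, canc hQP, hQP, Matrix.mul_one]))
      right_inv := fun X => Subtype.ext (Units.ext (by
          simp only [Matrix.mul_assoc, canc hPQ, hPQ, Matrix.mul_one])) }
  have h2 : Nat.card {X : GL κ K // X.1 * u = u * X.1 ∧ ct σ X.1 * X.1 = 1} = Nat.card U :=
    Nat.card_congr
      { toFun := fun X => ⟨⟨X.1, X.2.1⟩, X.2.2⟩
        invFun := fun X => ⟨X.1.1, X.1.2, X.2⟩
        left_inv := fun _ => rfl
        right_inv := fun _ => rfl }
  rw [h1, h2]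
  have unit : ∀ {H : Matrix κ κ K}, IsUnit H → IsUnit (ct σ P * H * P) := by
    rintro _ ⟨H, rfl⟩
    refine IsUnit.of_mul_eq_one (Q * (H⁻¹).1 * ct σ Q) ?_
    simp only [Matrix.mul_assoc, canc hPQ]
    rw [← Matrix.mul_assoc H.1, H.mul_inv, Matrix.one_mul, cQP]
  refine card_eq_mul U (fun X => ⟨ct σ P * (ct σ X.1.1 * X.1.1) * P, ?_, ?_,
    unit ((isUnit_ct X.1.isUnit).mul X.1.isUnit)⟩) ?_ ?_
  · have h3 : ct σ (X.1.1 * P * J) * (X.1.1 * P * J) = ct σ (X.1.1 * P) * (X.1.1 * P) := by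
      rw [Matrix.mul_assoc X.1.1, hJ, ← Matrix.mul_assoc X.1.1, (X.2 : _ = _), Matrix.mul_assoc u,
        ct_mul' u, Matrix.mul_assoc, ← Matrix.mul_assoc (ct σ u), hu, Matrix.one_mul]
    simpa only [ct_mul', Matrix.mul_assoc] using h3
  · simp only [ct_mul', ct_ct hσ, Matrix.mul_assoc]
  · rintro ⟨G, g1, g2, g3⟩
    have hH : IsUnit (ct σ Q * G * Q) := by
      obtain ⟨G, rfl⟩ := g3
      refine IsUnit.of_mul_eq_one (P * (G⁻¹).1 * ct σ P) ?_
      simp only [Matrix.mul_assoc, canc hQP]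
      rw [← Matrix.mul_assoc G.1, G.mul_inv, Matrix.one_mul, cPQ]
    obtain ⟨c, -, c1, c2⟩ := U_sqrt hσ hσ1 hu (H := ct σ Q * G * Q)
      ((isUnit_iff_isUnit_det _).1 hH).ne_zero
      (by simp only [ct_mul', ct_ct hσ, g2, Matrix.mul_assoc]) (by
        have h3 : ct σ u * (ct σ Q * G * Q) * u = ct σ Q * G * Q := by
          conv_rhs => rw [← g1]
          simp only [Matrix.mul_assoc]
          rw [hJ', ← Matrix.mul_assoc (ct σ u), ← ct_mul', ← hJ', ct_mul', Matrix.mul_assoc]
        conv_rhs => rw [← h3]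
        rw [← mul_assoc, ← mul_assoc, hu', one_mul])
    have hc : IsUnit c := isUnit_of_mul_isUnit_right (c2 ▸ hH)
    refine ⟨⟨hc.unit, c1⟩, Subtype.ext ?_⟩
    change ct σ P * (ct σ c * c) * P = G
    rw [c2]
    simp only [Matrix.mul_assoc, hQP, Matrix.mul_one]
    rw [← Matrix.mul_assoc, cQP, Matrix.one_mul]
  · intro x y
    change _ ↔ ct σ (x.1.1 * (y.1⁻¹).1) * (x.1.1 * (y.1⁻¹).1) = 1
    have cy : ct σ (y.1⁻¹).1 * ct σ y.1.1 = 1 := by rw [← ct_mul', y.1.mul_inv, ct_one]
    have cy' : ct σ y.1.1 * ct σ (y.1⁻¹).1 = 1 := mul_eq_one_comm.1 cy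
    rw [Subtype.mk.injEq, ct_mul']
    constructor
    · intro h
      have h3 := congrArg (fun M => ct σ Q * M * Q) h
      simp only [Matrix.mul_assoc, hPQ, Matrix.mul_one] at h3
      simp only [← Matrix.mul_assoc, cPQ, Matrix.one_mul] at h3
      rw [mul_assoc, ← mul_assoc (ct σ x.1.1), h3, mul_assoc, y.1.mul_inv, mul_one, cy]
    · intro h
      have h3 := congrArg (fun M => ct σ y.1.1 * M * y.1.1) h
      simp only [mul_assoc, Units.inv_mul, mul_one] at h3
      simp only [← mul_assoc, cy', one_mul] at h3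
      rw [h3]

theorem card_fix (hσ : ∀ a, σ (σ a) = a) (hσ1 : σ ≠ RingHom.id K) {V : Type*} [AddCommGroup V]
    [Module K V] (p : V → Prop) (hadd : ∀ x y, p x → p y → p (x + y))
    (hsmul : ∀ (c : K) x, p x → p (c • x)) (τ : V → V) (τa : ∀ x y, τ (x + y) = τ x + τ y)
    (τs : ∀ (c : K) x, τ (c • x) = σ c • τ x) (ττ : ∀ x, τ (τ x) = x) (hp : ∀ x, p x → p (τ x)) :
    Nat.card {x // p x} = Nat.card {x // p x ∧ τ x = x} ^ 2 := by
  obtain ⟨w, hw⟩ := exists_sub_ne hσ1
  have hw' : σ w - w ≠ 0 := fun h => hw (by linear_combination -h)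
  rw [pow_two, ← Nat.card_prod]
  refine (Nat.card_eq_of_bijective (fun z : {x // p x ∧ τ x = x} × {x // p x ∧ τ x = x} =>
    (⟨z.1.1 + w • z.2.1, hadd _ _ z.1.2.1 (hsmul _ _ z.2.2.1)⟩ : {x // p x})) ⟨?_, ?_⟩).symm
  · rintro ⟨⟨x, hx, hx'⟩, ⟨y, hy, hy'⟩⟩ ⟨⟨x', gx, gx'⟩, ⟨y', gy, gy'⟩⟩ h
    have h1 : x + w • y = x' + w • y' := congrArg Subtype.val h
    have h2 := congrArg τ h1
    rw [τa, τa, τs, τs, hx', hy', gx', gy'] at h2
    have h3 : y = y' := by
      have : (w - σ w) • y = (w - σ w) • y' := by linear_combination (norm := module) h1 - h2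
      exact smul_right_injective V hw this
    subst h3
    obtain rfl : x = x' := add_right_cancel h1
    rfl
  · rintro ⟨z, hz⟩
    refine ⟨(⟨((σ w - w)⁻¹ * σ w) • z + ((w - σ w)⁻¹ * w) • τ z,
      hadd _ _ (hsmul _ _ hz) (hsmul _ _ (hp _ hz)), ?_⟩,
      ⟨(w - σ w)⁻¹ • z + (σ w - w)⁻¹ • τ z, hadd _ _ (hsmul _ _ hz) (hsmul _ _ (hp _ hz)), ?_⟩),
      Subtype.ext ?_⟩
    · rw [τa, τs, τs, ττ, add_comm]; simp [hσ]
    · rw [τa, τs, τs, ττ, add_comm]; simp [hσ]
    · have : (σ w - w)⁻¹ = -(w - σ w)⁻¹ := by rw [← inv_neg, neg_sub]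
      simp only [this]
      match_scalars <;> field_simp <;> ring

variable {t : ℕ} {d : Fin t → ℕ}

/-- Extension by zero of the entries of a matrix. -/
def ff (G : Matrix ((k : Fin t) × Fin (d k)) ((k : Fin t) × Fin (d k)) K) (k l : Fin t)
    (i j : ℕ) : K := ex (fun a => ex (G a) l j) k i

theorem ff_val (G : Matrix ((k : Fin t) × Fin (d k)) ((k : Fin t) × Fin (d k)) K) (k l : Fin t)
    (i : Fin (d k)) (j : Fin (d l)) : ff G k l i j = G ⟨k, i⟩ ⟨l, j⟩ := by
  rw [ff, ex_val, ex_val]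

theorem ff_left (G : Matrix ((k : Fin t) × Fin (d k)) ((k : Fin t) × Fin (d k)) K) {k : Fin t}
    (l : Fin t) {i : ℕ} (j : ℕ) (h : d k ≤ i) : ff G k l i j = 0 := by
  rw [ff, ex, dif_neg (by omega)]

theorem ff_right (G : Matrix ((k : Fin t) × Fin (d k)) ((k : Fin t) × Fin (d k)) K) (k : Fin t)
    {l : Fin t} (i : ℕ) {j : ℕ} (h : d l ≤ j) : ff G k l i j = 0 := by
  rw [ff, ex]
  split_ifs
  · rw [ex, dif_neg (by omega)]
  · rfl

theorem ff_rec {G : Matrix ((k : Fin t) × Fin (d k)) ((k : Fin t) × Fin (d k)) K}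
    (hG : ct σ (jordanTypeMatrix d K) * G * jordanTypeMatrix d K = G) (k l : Fin t) {i j : ℕ}
    (hi : i < d k) (hj : j < d l) :
    ff G k l (i + 1) j + ff G k l i (j + 1) + ff G k l (i + 1) (j + 1) = 0 := by
  have h1 : ct σ (NN K d) = (NN K d)ᵀ := by
    ext a b
    simp [ct, NN, apply_ite σ]
  have h2 : ∀ (M : Matrix ((k : Fin t) × Fin (d k)) ((k : Fin t) × Fin (d k)) K) a b,
      ((NN K d)ᵀ * M) a b = ex (fun c => M c b) a.1 (a.2 + 1) := fun M a b => by
    rw [← transpose_apply ((NN K d)ᵀ * M), transpose_mul, transpose_transpose, mul_NN]; rfl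
  rw [jordan_eq, ct_add', ct_one, h1, mul_add, mul_one, add_mul, one_mul, add_mul, add_assoc,
    add_eq_left, mul_assoc] at hG
  have h3 := congrFun (congrFun hG ⟨k, ⟨i, hi⟩⟩) ⟨l, ⟨j, hj⟩⟩
  rw [Matrix.add_apply, Matrix.add_apply, h2, h2, mul_NN, Matrix.zero_apply] at h3
  simp only [mul_NN] at h3
  rw [add_assoc]
  convert h3 using 2
  · rw [ff]; congr 1; ext c; exact ex_val (G c) l ⟨j, hj⟩
  · congr 1
    exact ex_val (fun a => ex (G a) l (j + 1)) k ⟨i, hi⟩

theorem ff_van {G : Matrix ((k : Fin t) × Fin (d k)) ((k : Fin t) × Fin (d k)) K}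
    (hG : ct σ (jordanTypeMatrix d K) * G * jordanTypeMatrix d K = G) (k l : Fin t) (i j : ℕ)
    (h : d k ≤ i + j) : ff G k l i j = 0 := by
  induction j generalizing i with
  | zero => exact ff_left G l 0 h
  | succ j ih =>
    by_cases hj : j < d l
    · induction hn : d k - i generalizing i with
      | zero => exact ff_left G l _ (by omega)
      | succ n ih' =>
        have := ff_rec hG k l (show i < d k by omega) hj
        rwa [ih (i + 1) (by omega), ih' (i + 1) (by omega) (by omega), zero_add, add_zero] at this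
    · exact ff_right G k i (by omega)

theorem ff_van' {G : Matrix ((k : Fin t) × Fin (d k)) ((k : Fin t) × Fin (d k)) K}
    (hG : ct σ (jordanTypeMatrix d K) * G * jordanTypeMatrix d K = G) (k l : Fin t) (i j : ℕ)
    (h : d l ≤ i + j) : ff G k l i j = 0 := by
  induction i generalizing j with
  | zero => exact ff_right G k 0 (by omega)
  | succ i ih =>
    by_cases hi : i < d k
    · induction hn : d l - j generalizing j with
      | zero => exact ff_right G k _ (by omega)
      | succ n ih' =>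
        have := ff_rec hG k l hi (show j < d l by omega)
        rwa [ih (j + 1) (by omega), ih' (j + 1) (by omega) (by omega), add_zero, add_zero] at this
    · exact ff_left G l j (by omega)

theorem ff_anti {G : Matrix ((k : Fin t) × Fin (d k)) ((k : Fin t) × Fin (d k)) K}
    (hG : ct σ (jordanTypeMatrix d K) * G * jordanTypeMatrix d K = G) {k l : Fin t}
    (hkl : d k = d l) (i j : ℕ) (h : i + j + 1 = d k) :
    ff G k l i j = (-1) ^ j * ff G k l (d k - 1) 0 := by
  induction j generalizing i with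
  | zero => rw [pow_zero, one_mul, ← h]; rfl
  | succ j ih =>
    have := ff_rec hG k l (show i < d k by omega) (show j < d l by omega)
    rw [ff_van hG k l (i + 1) (j + 1) (by omega), ih (i + 1) (by omega)] at this
    linear_combination this

variable (hd : ∀ k, 1 ≤ d k)

/-- The index of the last vector of a block. -/
def eL (k : Fin t) : (k : Fin t) × Fin (d k) := ⟨k, ⟨d k - 1, by have := hd k; omega⟩⟩

/-- The layer forms. -/
def lam (G : Matrix ((k : Fin t) × Fin (d k)) ((k : Fin t) × Fin (d k)) K) (a : ℕ) :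
    Matrix {k // d k = a} {k // d k = a} K := of fun k l => G (e0 hd k.1) (eL hd l.1)

theorem lam_ct {G : Matrix ((k : Fin t) × Fin (d k)) ((k : Fin t) × Fin (d k)) K}
    (hG : ct σ (jordanTypeMatrix d K) * G * jordanTypeMatrix d K = G) (a : ℕ) :
    lam hd (ct σ G) a = (-1 : K) ^ (a - 1) • ct σ (lam hd G a) := by
  ext ⟨k, hk⟩ ⟨l, hl⟩
  have h1 := ff_anti hG (hl.trans hk.symm) 0 (d k - 1) (by have := hd k; omega)
  have h2 : ff G l k 0 (d k - 1) = G (e0 hd l) (eL hd k) := ff_val G l k ⟨0, hd l⟩ (eL hd k).2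
  have h3 : ff G l k (d l - 1) 0 = G (eL hd l) (e0 hd k) := ff_val G l k (eL hd l).2 ⟨0, hd k⟩
  change σ (G (eL hd l) (e0 hd k)) = (-1) ^ (a - 1) * σ (G (e0 hd l) (eL hd k))
  rw [← h2, h1, h3, hk, map_mul, map_pow, map_neg, map_one, ← mul_assoc, ← mul_pow]
  simp

theorem lam_mul {G A : Matrix ((k : Fin t) × Fin (d k)) ((k : Fin t) × Fin (d k)) K}
    (hG : ct σ (jordanTypeMatrix d K) * G * jordanTypeMatrix d K = G) (hA : A ∈ CC K d) (a : ℕ) :
    lam hd (G * A) a = lam hd G a * (BB hd A).toSquareBlock d a := by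
  ext ⟨k, hk⟩ ⟨l, hl⟩
  have h1 : ∀ b : (k : Fin t) × Fin (d k), A b (eL hd l) =
      if a - 1 ≤ (b.2 : ℕ) then ex (fun c => A c (e0 hd l)) b.1 (b.2 - (a - 1)) else 0 := by
    intro b
    rw [← NN_pow_mulVec, col_eq hd hA, ← hl]
    exact (ex_val (A b) l (eL hd l).2).symm
  change ∑ b, G (e0 hd k) b * A b (eL hd l) = ∑ r : {k // d k = a},
    G (e0 hd k) (eL hd r.1) * A (e0 hd r.1) (e0 hd l)
  rw [← Finset.sum_subtype (univ.filter (d · = a)) (by simp)
    fun r => G (e0 hd k) (eL hd r) * A (e0 hd r) (e0 hd l), Finset.sum_filter, Fintype.sum_sigma]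
  refine Finset.sum_congr rfl fun r _ => ?_
  have h2 : ∀ j : Fin (d r), ¬ (d r = a ∧ (j : ℕ) = a - 1) →
      G (e0 hd k) ⟨r, j⟩ * A ⟨r, j⟩ (eL hd l) = 0 := by
    intro j hj
    have := hd l
    have h3 := j.2
    rcases lt_trichotomy (j : ℕ) (a - 1) with h | h | h
    · rw [h1, if_neg (by simp only; omega), mul_zero]
    · rw [h1, if_pos (by simp only; omega)]
      simp only [h, Nat.sub_self]
      rw [ex, dif_pos (show 0 < d r from hd r)]
      exact mul_eq_zero_of_right _ (BB_tri hd hA (i := r) (j := l) (by omega))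
    · exact mul_eq_zero_of_left ((ff_val G k r ⟨0, hd k⟩ j).symm.trans
        (ff_van hG k r _ _ (by simp only; omega))) _
  split_ifs with h
  · refine (Finset.sum_eq_single (eL hd r).2 (fun j _ hj => h2 j fun h' => hj
      (Fin.ext (by simp only [eL]; omega))) (fun h => absurd (mem_univ _) h)).trans ?_
    rw [h1, if_pos (by simp only [eL]; omega)]
    have : ((eL hd r).2 : ℕ) - (a - 1) = 0 := by simp only [eL]; omega
    simp only [this]
    rw [ex, dif_pos (show 0 < d r from hd r)]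
    rfl
  · exact Finset.sum_eq_zero fun j _ => h2 j fun h' => h h'.1

theorem lam_unit {G : Matrix ((k : Fin t) × Fin (d k)) ((k : Fin t) × Fin (d k)) K}
    (hG : ct σ (jordanTypeMatrix d K) * G * jordanTypeMatrix d K = G) (hu : IsUnit G) (a : ℕ) :
    IsUnit (lam hd G a) := by
  let L : Matrix (Fin t) (Fin t) K := of fun l k => G (e0 hd k) (eL hd l)
  have h1 : L.BlockTriangular d := fun l k h =>
    (ff_val G k l ⟨0, hd k⟩ (eL hd l).2).symm.trans (ff_van hG k l _ _ (by
      simp only [eL] at h ⊢; omega))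
  have h2 : IsUnit L := by
    rw [← vecMul_injective_iff_isUnit]
    rw [← mulVec_injective_iff_isUnit] at hu
    have key : ∀ v, v ᵥ* L = 0 → v = 0 := by
      intro v hv
      let w : (k : Fin t) × Fin (d k) → K := fun b => if (b.2 : ℕ) = d b.1 - 1 then v b.1 else 0
      have h3 : G *ᵥ w = G *ᵥ 0 := by
        ext ⟨k, i⟩
        have h4 : (G *ᵥ w) ⟨k, i⟩ = ∑ l, G ⟨k, i⟩ (eL hd l) * v l := by
          rw [mulVec, dotProduct, Fintype.sum_sigma]
          refine Finset.sum_congr rfl fun l _ => ?_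
          refine (Finset.sum_eq_single (eL hd l).2 (fun j _ hj => mul_eq_zero_of_right _
            (if_neg fun h => hj (Fin.ext h))) (fun h => absurd (mem_univ _) h)).trans ?_
          simp [w, eL]
        rw [h4, mulVec_zero, Pi.zero_apply]
        by_cases hi : (i : ℕ) = 0
        · obtain rfl : i = ⟨0, hd k⟩ := Fin.ext hi
          rw [← Pi.zero_apply (M := fun _ => K) k, ← hv, vecMul, dotProduct]
          exact Finset.sum_congr rfl fun l _ => mul_comm _ _
        · refine Finset.sum_eq_zero fun l _ => mul_eq_zero_of_left ?_ _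
          exact (ff_val G k l i (eL hd l).2).symm.trans (ff_van' hG k l _ _ (by
            simp only [eL]; omega))
      ext l
      simpa [w, eL] using congrFun (hu h3) (eL hd l)
    exact fun x y h => sub_eq_zero.1 (key _ (by rw [sub_vecMul]; exact sub_eq_zero.2 h))
  rw [isUnit_iff_isUnit_det, h1.det, isUnit_iff_ne_zero, Finset.prod_ne_zero_iff] at h2
  rw [isUnit_iff_isUnit_det, isUnit_iff_ne_zero, ← det_transpose]
  by_cases h3 : a ∈ univ.image d
  · exact h2 a h3
  · have : IsEmpty {k // d k = a} := ⟨fun k => h3 (mem_image.2 ⟨k.1, mem_univ _, k.2⟩)⟩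
    rw [det_isEmpty]; exact one_ne_zero

theorem card_herm [Fintype K] {q : ℕ} (hK : Fintype.card K = q ^ 2) (hσ : ∀ a, σ (σ a) = a)
    (hσ1 : σ ≠ RingHom.id K) (S : Type*) [Fintype S] (n : ℕ) :
    Nat.card {M : Matrix S S K // (-1 : K) ^ n • ct σ M = M} =
      q ^ (Fintype.card S * Fintype.card S) := by
  classical
  have h := card_fix hσ hσ1 (fun _ : Matrix S S K => True) (fun _ _ _ _ => trivial)
    (fun _ _ _ => trivial) (fun M => (-1 : K) ^ n • ct σ M) (fun x y => by rw [ct_add', smul_add])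
    (fun c x => by ext i j; simp [ct]; ring) (fun x => by
      ext i j; simp [ct, hσ, ← mul_assoc, ← mul_pow]) (fun _ _ => trivial)
  rw [Nat.card_congr (Equiv.subtypeUnivEquiv fun _ => trivial),
    show Nat.card (Matrix S S K) = _ from (Nat.card_congr (Equiv.curry S S K)).symm,
    Nat.card_eq_fintype_card, Fintype.card_fun, hK,
    Fintype.card_prod, ← pow_mul, mul_comm 2, pow_mul] at h
  simp only [true_and] at h
  exact (Nat.pow_left_injective two_ne_zero h).symm

theorem card_hermU [Fintype K] {q : ℕ} (hK : Fintype.card K = q ^ 2) (S : Type*) [Fintype S]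
    [DecidableEq S] (n : ℕ) :
    Nat.card {M : Matrix S S K // IsUnit M} = Nat.card (GU (Fintype.card S) K q) *
      Nat.card {M : Matrix S S K // (-1 : K) ^ n • ct (H23.conj hK) M = M ∧ IsUnit M} := by
  set σ := H23.conj hK
  have hσ := H23.conj_conj hK
  have hσ1 := H23.conj_ne_id hK
  let e := Fintype.equivFin S
  have h := card_norm hσ hσ1 (P := (1 : Matrix S S K).submatrix e.symm id)
    (Q := (1 : Matrix S S K).submatrix id e.symm) (J := 1) (u := 1)
    (by rw [← Equiv.coe_refl, submatrix_mul_equiv, mul_one, submatrix_one_equiv])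
    (by rw [submatrix_mul_equiv, mul_one, submatrix_id_id]) (by rw [ct_one, mul_one])
    (by rw [Matrix.mul_one, Matrix.one_mul])
  obtain ⟨η, h0, hη⟩ : ∃ η : K, η ≠ 0 ∧ σ η = (-1) ^ n * η := by
    rcases neg_one_pow_eq_or K n with h | h
    · exact ⟨1, one_ne_zero, by simp [h]⟩
    · obtain ⟨w, hw⟩ := exists_sub_ne hσ1
      exact ⟨w - σ w, hw, by rw [map_sub, hσ, h]; ring⟩
  have sq : (-1 : K) ^ n * (-1) ^ n = 1 := by rw [← mul_pow]; simp
  have us : ∀ (c : K) (M : Matrix S S K), c ≠ 0 → IsUnit M → IsUnit (c • M) := fun c M hc hM => by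
    rw [isUnit_iff_isUnit_det, isUnit_iff_ne_zero] at hM ⊢
    rw [det_smul]; exact mul_ne_zero (pow_ne_zero _ hc) hM
  refine Eq.trans (Nat.card_congr
    { toFun := fun M => ⟨M.2.unit, by simp⟩
      invFun := fun u => ⟨u.1.1, u.1.isUnit⟩
      left_inv := fun M => rfl
      right_inv := fun u => Subtype.ext (Units.ext rfl) }) (h.trans ?_)
  congr 1
  · exact Nat.card_congr (Equiv.subtypeEquivRight fun X => by simp [mem_GU_ct hK])
  · exact Nat.card_congr
      { toFun := fun G => ⟨η⁻¹ • G.1, by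
          rw [ct_smul, G.2.2.1, smul_smul, map_inv₀, hη, mul_inv, ← mul_assoc,
            mul_inv_cancel₀ (by simp), one_mul], us _ _ (inv_ne_zero h0) G.2.2.2⟩
        invFun := fun M => ⟨η • M.1, by simp [ct_one], by
          rw [ct_smul, hη, mul_comm, ← smul_smul, M.2.1], us _ _ h0 M.2.2⟩
        left_inv := fun G => Subtype.ext (smul_inv_smul₀ h0 _)
        right_inv := fun M => Subtype.ext (inv_smul_smul₀ h0 _) }

variable (σ d) in
/-- Invariant Hermitian forms. -/
def HG : AddSubgroup (Matrix ((k : Fin t) × Fin (d k)) ((k : Fin t) × Fin (d k)) K) where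
  carrier := {G | ct σ (jordanTypeMatrix d K) * G * jordanTypeMatrix d K = G ∧ ct σ G = G}
  zero_mem' := ⟨by simp, by ext; simp [ct]⟩
  add_mem' := fun {a b} ha hb => ⟨by rw [mul_add, add_mul, ha.1, hb.1], by rw [ct_add', ha.2, hb.2]⟩
  neg_mem' := fun {a} ha => ⟨by rw [mul_neg, neg_mul, ha.1], by
    conv_rhs => rw [← ha.2]
    ext; simp [ct]⟩

variable (σ) in
/-- Hermitian matrices up to sign. -/
def HE (S : Type*) (n : ℕ) : AddSubgroup (Matrix S S K) where
  carrier := {M | (-1 : K) ^ n • ct σ M = M}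
  zero_mem' := by ext; simp [ct]
  add_mem' := fun {a b} (ha : _ = _) (hb : _ = _) => by
    change _ • ct σ (a + b) = _
    rw [ct_add', smul_add, ha, hb]
  neg_mem' := fun {a} (ha : _ = _) => by
    change _ • ct σ (-a) = _
    conv_rhs => rw [← ha]
    ext; simp [ct]

/-- The layer map on invariant Hermitian forms. -/
def Lam : HG σ d →+ ∀ a : range (univ.sup d + 1), HE σ {k // d k = a} (a - 1) where
  toFun G a := ⟨lam hd G.1 a, by
    change _ = _
    rw [← lam_ct hd G.2.1, G.2.2]⟩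
  map_zero' := rfl
  map_add' _ _ := rfl

include hd in
theorem main [Fintype K] {q : ℕ} (hK : Fintype.card K = q ^ 2) {κ : Type*} [Fintype κ]
    [DecidableEq κ] {P : Matrix κ ((k : Fin t) × Fin (d k)) K}
    {Q : Matrix ((k : Fin t) × Fin (d k)) κ K} (hPQ : P * Q = 1) (hQP : Q * P = 1)
    {u : Matrix κ κ K} (hu : ct (H23.conj hK) u * u = 1)
    (hJ : P * jordanTypeMatrix d K = u * P) :
    Nat.card {X : GL κ K // X.1 * u = u * X.1 ∧ ct (H23.conj hK) X.1 * X.1 = 1} =
    q ^ (2 * (∑ i ∈ range (univ.sup d + 1), ∑ j ∈ range (univ.sup d + 1),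
      if i < j then i * #{k | d k = i} * #{k | d k = j} else 0) +
      ∑ i ∈ range (univ.sup d + 1), (i - 1) * #{k | d k = i} ^ 2) *
    ∏ i ∈ range (univ.sup d + 1), Nat.card (GU #{k | d k = i} K q) := by
  have hσ := H23.conj_conj hK
  have hσ1 := H23.conj_ne_id hK
  set σ := H23.conj hK with hσd
  set J := jordanTypeMatrix d K with hJd
  have hq : 0 < q := by have := H23.two_le_of_card_eq_sq hK; omega
  have hr : ∀ k, d k ∈ range (univ.sup d + 1) := fun k =>
    mem_range.2 (Nat.lt_succ_of_le (Finset.le_sup (f := d) (mem_univ k)))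
  have hS : ∀ i, Fintype.card {k // d k = i} = #{k | d k = i} := fun i => Fintype.card_subtype _
  have hc : ∀ A, A * J = J * A ↔ A ∈ CC K d := fun A => by
    rw [hJd, jordan_eq, mul_add, add_mul, mul_one, one_mul, add_right_inj]; rfl
  set H := ct σ P * P with hH
  have h0 : ct σ J * H * J = H := by
    have : ct σ (P * J) * (P * J) = H := by
      rw [hJ, ct_mul', Matrix.mul_assoc, canc hu]
    simpa only [hH, ct_mul', Matrix.mul_assoc] using this
  have hHi : Q * ct σ Q * H = 1 := by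
    rw [hH, Matrix.mul_assoc, ← Matrix.mul_assoc (ct σ Q), ← ct_mul', hPQ, ct_one, Matrix.one_mul,
      hQP]
  have hHu : IsUnit H := IsUnit.of_mul_eq_one_right _ hHi
  have hJu : IsUnit (ct σ J) := isUnit_of_mul_isUnit_left (isUnit_of_mul_isUnit_left (h0 ▸ hHu))
  have inv1 : ∀ A ∈ CC K d, ct σ J * (H * A) * J = H * A := fun A hA => by
    rw [mul_assoc, mul_assoc, (hc A).2 hA, ← mul_assoc, ← mul_assoc, h0]
  have inv2 : ∀ G, ct σ J * G * J = G → ∃ A ∈ CC K d, H * A = G := fun G hG => by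
    have h1 : H * (Q * ct σ Q * G) = G := by rw [← mul_assoc, mul_eq_one_comm.1 hHi, one_mul]
    refine ⟨_, (hc _).1 (hHu.mul_left_cancel (hJu.mul_left_cancel ?_)), h1⟩
    rw [← mul_assoc H, h1, ← mul_assoc, hG, ← mul_assoc, ← mul_assoc, h0, h1]
  have invc : ∀ G, ct σ J * G * J = G → ct σ J * ct σ G * J = ct σ G := fun G hG => by
    conv_rhs => rw [← hG]
    rw [ct_mul', ct_mul', ct_ct hσ, mul_assoc]
  have c1 : Nat.card {G // ct σ J * G * J = G} = Nat.card (CC K d) :=
    (Nat.card_eq_of_bijective (fun A : CC K d => (⟨H * A.1, inv1 _ A.2⟩ : {G // ct σ J * G * J = G}))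
      ⟨fun A B h => Subtype.ext (hHu.mul_left_cancel (congrArg Subtype.val h)), fun G => by
        obtain ⟨A, hA, h⟩ := inv2 G.1 G.2
        exact ⟨⟨A, hA⟩, Subtype.ext h⟩⟩).symm
  have c2 : Nat.card (HG σ d) = q ^ ∑ k, ∑ l, min (d k) (d l) := by
    have h := card_fix hσ hσ1 (fun G => ct σ J * G * J = G)
      (fun x y hx hy => by rw [mul_add, add_mul, hx, hy])
      (fun c x hx => by rw [mul_smul_comm, smul_mul_assoc, hx]) (ct σ) ct_add' (ct_smul σ)
      (ct_ct hσ) invc
    rw [c1, card_CC hd, hK, ← pow_mul, mul_comm 2, pow_mul] at h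
    exact (Nat.pow_left_injective two_ne_zero h).symm
  have hsurj : Function.Surjective (Lam (σ := σ) hd) := by
    intro M
    obtain ⟨A, hA⟩ := phi_surj hd fun a => (lam hd H a)⁻¹ * (M a).1
    have h1 : ∀ a : range (univ.sup d + 1), lam hd (H * A.1) a = (M a).1 := fun a => by
      rw [lam_mul hd h0 A.2, show (BB hd A.1).toSquareBlock d a = _ from congrFun hA a,
        ← mul_assoc, mul_nonsing_inv _ ((isUnit_iff_isUnit_det _).1 (lam_unit hd h0 hHu a)),
        one_mul]
    obtain ⟨w, hw⟩ := exists_sub_ne hσ1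
    have h2 : w / (w - σ w) + σ (w / (w - σ w)) = 1 := by
      have : σ w - w ≠ 0 := fun h => hw (by linear_combination -h)
      rw [map_div₀, map_sub, hσ]; field_simp; ring
    refine ⟨⟨(w / (w - σ w)) • (H * A.1) + σ (w / (w - σ w)) • ct σ (H * A.1), ?_, ?_⟩, ?_⟩
    · rw [mul_add, add_mul, mul_smul_comm, smul_mul_assoc, mul_smul_comm, smul_mul_assoc,
        inv1 _ A.2, invc _ (inv1 _ A.2)]
    · rw [ct_add', ct_smul, ct_smul, hσ, ct_ct hσ, add_comm]
    · funext a
      refine Subtype.ext ?_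
      change (w / (w - σ w)) • lam hd (H * A.1) a + σ (w / (w - σ w)) • lam hd (ct σ (H * A.1)) a = _
      rw [lam_ct hd (inv1 _ A.2), h1, (M a).2, ← add_smul, h2, one_smul]
  have hunit : ∀ G : HG σ d, IsUnit G.1 ↔ ∀ a, IsUnit (Lam hd G a).1 := by
    rintro ⟨G, hG⟩
    obtain ⟨A, hA, rfl⟩ := inv2 G hG.1
    refine ((Units.isUnit_units_mul hHu.unit A).trans (isUnit_iff' hd (A := ⟨A, hA⟩))).trans
      (forall_congr' fun a => ?_)
    change _ ↔ IsUnit (lam hd (H * A) a)
    rw [lam_mul hd h0 hA, ← (lam_unit hd h0 hHu a).unit_spec, Units.isUnit_units_mul]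
    rfl
  have c3 := card_fib (Lam (σ := σ) hd) hsurj fun _ => True
  rw [Nat.card_congr (Equiv.subtypeUnivEquiv fun _ => trivial),
    Nat.card_congr (Equiv.subtypeUnivEquiv fun _ => trivial), c2, Nat.card_pi,
    sum_min d _ hr, sum_sym _ (fun i => #{k | d k = i}) (by
      rw [card_eq_zero, filter_eq_empty_iff]
      intro k _ h
      have := hd k
      omega), pow_add] at c3
  have c4 : ∏ a : range (univ.sup d + 1), Nat.card (HE σ {k // d k = a} (a - 1)) =
      q ^ ∑ i ∈ range (univ.sup d + 1), #{k | d k = i} * #{k | d k = i} := by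
    rw [← Finset.prod_pow_eq_pow_sum, ← Finset.prod_coe_sort (range (univ.sup d + 1))]
    refine Finset.prod_congr rfl fun a _ => ?_
    rw [← hS]
    exact card_herm hK hσ hσ1 _ _
  rw [c4] at c3
  have c5 := Nat.eq_of_mul_eq_mul_right (by positivity) c3
  have c6 : Nat.card {G // ct σ J * G * J = G ∧ ct σ G = G ∧ IsUnit G} =
      Nat.card {G : HG σ d // ∀ a, IsUnit (Lam hd G a).1} := Nat.card_congr
    { toFun := fun G => ⟨⟨G.1, G.2.1, G.2.2.1⟩, (hunit _).1 G.2.2.2⟩
      invFun := fun G => ⟨G.1.1, G.1.2.1, G.1.2.2, (hunit _).2 G.2⟩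
      left_inv := fun _ => rfl
      right_inv := fun _ => rfl }
  rw [card_fib (Lam (σ := σ) hd) hsurj fun M => ∀ a, IsUnit (M a).1, ← c5,
    Nat.card_congr (Equiv.subtypePiEquivPi (p := fun (a : range (univ.sup d + 1))
      (M : HE σ {k // d k = a} (a - 1)) => IsUnit M.1)), Nat.card_pi] at c6
  have c7 := card_norm hσ hσ1 hPQ hQP hu hJ
  rw [JCent.main hd, c6, ← Finset.prod_coe_sort (range (univ.sup d + 1))] at c7
  have c8 : ∀ a : range (univ.sup d + 1), ∏ j : Fin #{k | d k = a},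
      (Fintype.card K ^ #{k | d k = a} - Fintype.card K ^ (j : ℕ)) =
      Nat.card (GU #{k | d k = a} K q) *
        Nat.card {M : HE σ {k // d k = a} (a - 1) // IsUnit M.1} := fun a => by
    rw [← hS, ← card_units, card_hermU hK _ (a - 1)]
    congr 1
    exact Nat.card_congr (Equiv.subtypeSubtypeEquivSubtypeInter _ _).symm
  have c9 : 0 < ∏ a : range (univ.sup d + 1),
      Nat.card {M : HE σ {k // d k = a} (a - 1) // IsUnit M.1} := by
    refine Finset.prod_pos fun a _ => Nat.pos_of_ne_zero fun h => ?_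
    have h1 := c8 a
    rw [h, mul_zero, ← hS, ← card_units] at h1
    have : Nonempty {M : Matrix {k // d k = a} {k // d k = a} K // IsUnit M} := ⟨⟨1, isUnit_one⟩⟩
    exact Nat.card_pos.ne' h1
  simp only [c8] at c7
  rw [Finset.prod_mul_distrib, hK, ← pow_mul, mul_comm 2, pow_mul, pow_two] at c7
  rw [← Finset.prod_coe_sort (range (univ.sup d + 1))]
  refine Nat.eq_of_mul_eq_mul_right (Nat.mul_pos (pow_pos hq _) c9) (c7.symm.trans ?_)
  ring

end Cfsg.Agent.H3.JCentU
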