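import Cfsg.Agent.H3.L7a

/-! Subgroup structure of the simple group of order 168. -/

set_option autoImplicit false

namespace Cfsg.Agent.H3.L7

open Subgroup

def z : T := el 2
def x3 : T := el 129
def x4 : T := el 86

theorem f_ord : ∀ g : T, od g = 1 ∨ od g = 2 ∨ od g = 3 ∨ od g = 4 ∨ od g = 7 := by decide +kernel
theorem f_c2 : ∀ g : T, od g = 2 → ∃ c : T, c * z * c⁻¹ = g := by decide +kernel
theorem f_c3 : ∀ g : T, od g = 3 → ∃ c : T, c * x3 * c⁻¹ = g := by decide +kernel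
theorem f_c4 : ∀ g : T, od g = 4 → ∃ c : T, c * x4 * c⁻¹ = g := by decide +kernel
theorem f_c7 : ∀ g : T, od g = 7 → ∃ c : T, c * a * c⁻¹ = g ∨ c * a⁻¹ * c⁻¹ = g := by
  decide +kernel
theorem f_nr : ∀ c : T, c * a * c⁻¹ ≠ a⁻¹ := by decide +kernel
theorem f_cnt : Nat.card {g : T // od g = 2} = 21 ∧ Nat.card {g : T // od g = 3} = 56 ∧
    Nat.card {g : T // od g = 4} = 42 ∧ Nat.card {g : T // od g = 7} = 48 ∧
    Nat.card {g : T // ∃ c : T, c * a * c⁻¹ = g} = 24 ∧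
    Nat.card {g : T // ∃ c : T, c * a⁻¹ * c⁻¹ = g} = 24 := by
  simp only [Nat.card_eq_fintype_card, Fintype.card_subtype]
  decide +kernel
theorem f_nD : ∀ g : T, (∀ d ∈ D, g * d * g⁻¹ ∈ D) → g ∈ D := by decide +kernel
theorem f_cD : ∀ d ∈ D, d ≠ 1 → (∀ t ∈ D, t * d = d * t) → ∀ g : T, (d * g = g * d ↔ g ∈ D) := by
  decide +kernel
theorem f_nU : ∀ g : T, ((∀ d ∈ U1, g * d * g⁻¹ ∈ U1) ↔ g ∈ S1) ∧
    ((∀ d ∈ U2, g * d * g⁻¹ ∈ U2) ↔ g ∈ S2) := by decide +kernel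
theorem f_n3 : ∀ g : T, (g * x3 * g⁻¹ = x3 ∨ g * x3 * g⁻¹ = x3 ^ 2) ↔ g ∈ N3 := by decide +kernel
theorem f_kl : ∀ x ∈ D, ∀ y ∈ D, x * x = 1 → y * y = 1 → x * y = y * x → x ≠ 1 → y ≠ 1 → x ≠ y →
    (x ∈ U1 ∧ y ∈ U1) ∨ (x ∈ U2 ∧ y ∈ U2) := by decide +kernel
theorem f_U : (∀ x ∈ U1, x ∈ D ∧ x * x = 1) ∧ (∀ x ∈ U2, x ∈ D ∧ x * x = 1) := by decide +kernel
theorem f_UU : ∀ g : T, ∃ x ∈ U1, g * x * g⁻¹ ∉ U2 := by decide +kernel
theorem f_SS : ∀ g : T, ∃ x ∈ S1, g * x * g⁻¹ ∉ S2 := by decide +kernel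
theorem f_DS : ∀ x ∈ D, x ∈ S1 := by decide +kernel
theorem f_S3 : ∀ x ∈ S3, el 8 * x * (el 8)⁻¹ ∈ S2 := by decide +kernel
theorem f_F : ∃ x ∈ F, ∃ y ∈ F, x * y ≠ y * x := by decide +kernel
theorem f_7 : ∀ y : T, y ∉ F → ∃ i < 7, ∃ j < 7, a ^ i * y * a ^ j = b ∨
    a ^ i * y * a ^ j = el 10 ∨ a ^ i * y * a ^ j = el 28 := by decide +kernel
theorem f_7' : a * a * el 10 * el 10 * a * a = b ∧ a * el 28 * a * a * el 28 * a = b := by
  decide +kernel
theorem f_3 : ∀ y : T, y ∉ S1 → y ∉ S3 → od (x3 * x3 * y * x3 * y * y) = 7 ∨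
    od (x3 * y * x3 * y * y * y) = 7 ∨ od y = 7 ∨ od (x3 * y) = 7 := by decide +kernel

theorem l7 {M : Subgroup T} (ha : a ∈ M) (hM : M ≠ ⊤) : M ≤ F := fun y hy => by
  by_contra h
  obtain ⟨i, -, j, -, h'⟩ := f_7 y h
  have hm : a ^ i * y * a ^ j ∈ M := M.mul_mem (M.mul_mem (M.pow_mem ha i) hy) (M.pow_mem ha j)
  refine hM (eq_top ha ?_)
  rcases h' with e | e | e <;> rw [e] at hm
  · exact hm
  · rw [← f_7'.1]; apply_rules [M.mul_mem]
  · rw [← f_7'.2]; apply_rules [M.mul_mem]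

theorem l3 {M : Subgroup T} (ha : x3 ∈ M) (h7 : ∀ y ∈ M, od y ≠ 7) : M ≤ S1 ∨ M ≤ S3 := by
  have key : ∀ y ∈ M, y ∈ S1 ∨ y ∈ S3 := fun y hy => by
    by_contra h
    rw [not_or] at h
    rcases f_3 y h.1 h.2 with e | e | e | e <;> refine h7 _ ?_ e <;> apply_rules [M.mul_mem]
  by_contra h
  rw [not_or, SetLike.not_le_iff_exists, SetLike.not_le_iff_exists] at h
  obtain ⟨⟨x, hx, hx1⟩, y, hy, hy3⟩ := h
  have hx3 := (key x hx).resolve_left hx1
  have hy1 := (key y hy).resolve_right hy3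
  rcases key _ (M.mul_mem hx hy) with e | e
  · exact hx1 ((S1.mul_mem_cancel_right hy1).1 e)
  · exact hy3 ((S3.mul_mem_cancel_left hx3).1 e)

variable {G : Type*} [Group G]

theorem card_G (e : T ≃* G) : Nat.card G = 168 := by
  rw [← Nat.card_congr e.toEquiv, card_T]

theorem ord_e (e : T ≃* G) (x : T) : orderOf (e x) = od x := by
  rw [MulEquiv.orderOf_eq, ord_eq]

/-- The image of a subgroup of the model. -/
def im (e : T ≃* G) (S : Subgroup T) : Subgroup G := S.map e.toMonoidHom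

theorem mem_im (e : T ≃* G) {S : Subgroup T} {x : T} : e x ∈ im e S ↔ x ∈ S :=
  mem_map_iff_mem e.injective

theorem card_im (e : T ≃* G) (S : Subgroup T) : Nat.card (im e S) = Nat.card S :=
  card_map_of_injective e.injective

theorem im_conj (e : T ≃* G) (S : Subgroup T) (g : G) :
    (im e S).map (MulAut.conj g).toMonoidHom = im (e.trans (MulAut.conj g)) S := by
  rw [im, map_map]; rfl

theorem iso_im (e : T ≃* G) {S : Subgroup T} {H : Type*} [Group H] (h : Nonempty (S ≃* H)) :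
    Nonempty (im e S ≃* H) := ⟨(e.subgroupMap S).symm.trans h.some⟩

theorem card_sub (e : T ≃* G) {p : G → Prop} {q : T → Prop} (h : ∀ x, q x ↔ p (e x)) :
    Nat.card {g // p g} = Nat.card {g // q g} :=
  (Nat.card_congr (e.toEquiv.subtypeEquiv h)).symm

theorem norm_im [Finite G] (e : T ≃* G) {U S : Subgroup T}
    (h : ∀ g, (∀ d ∈ U, g * d * g⁻¹ ∈ U) ↔ g ∈ S) : normalizer (im e U : Set G) = im e S := by
  ext g
  obtain ⟨g, rfl⟩ := e.surjective g
  rw [mem_im, ← h]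
  constructor
  · intro hg d hd
    have := (mem_normalizer_iff.1 hg (e d)).1 ((mem_im e).2 hd)
    rwa [← map_inv, ← map_mul, ← map_mul, mem_im] at this
  · intro hg
    refine mem_normalizer_fintype fun n hn => ?_
    obtain ⟨n, rfl⟩ := e.surjective n
    rw [SetLike.mem_coe, ← map_inv, ← map_mul, ← map_mul, mem_im]
    exact hg n ((mem_im e).1 hn)

theorem exists_sylow [Finite G] (e : T ≃* G) (S : Sylow 2 G) :
    ∃ g : G, (S : Subgroup G) = im (e.trans (MulAut.conj g)) D := by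
  have hc : Nat.card (im e D) = 2 ^ (Nat.card G).factorization 2 := by
    rw [card_im, cards.1, card_G e]; decide +kernel
  obtain ⟨g, hg⟩ := MulAction.exists_smul_eq G (Sylow.ofCard _ hc) S
  refine ⟨g, ?_⟩
  rw [← hg, ← im_conj]; rfl

theorem klein_eq (e : T ≃* G) {U : Subgroup G} (hU : U ≤ im e D) (h : IsKleinFour U) :
    U = im e U1 ∨ U = im e U2 := by
  have hc : Nat.card U = 4 := h.card_four
  have : Finite U := Nat.finite_of_card_ne_zero (by omega)
  have : Fintype U := Fintype.ofFinite U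
  obtain ⟨x, y, hx, hy, hxy⟩ : ∃ x y : U, x ≠ 1 ∧ y ≠ 1 ∧ x ≠ y := by
    have h3 : 2 < Fintype.card U := by rw [← Nat.card_eq_fintype_card]; omega
    obtain ⟨p, q, r, h1, h2, h4⟩ := Fintype.two_lt_card_iff.1 h3
    by_cases hp : p = 1
    · exact ⟨q, r, fun e => h1 (hp.trans e.symm), fun e => h2 (hp.trans e.symm), h4⟩
    by_cases hq : q = 1
    · exact ⟨p, r, hp, fun e => h4 (hq.trans e.symm), h2⟩
    · exact ⟨p, q, hp, hq, h1⟩
  obtain ⟨x', hx', ex⟩ := hU x.2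
  obtain ⟨y', hy', ey⟩ := hU y.2
  have ex : e x' = x := ex
  have ey : e y' = y := ey
  have sq : ∀ u : U, (u : G) * u = 1 := fun u => congrArg Subtype.val (IsKleinFour.mul_self u)
  have cm : (x : G) * y = y * x := congrArg Subtype.val (IsKleinFour.isMulCommutative.is_comm.comm x y)
  have key : ∀ V : Subgroup T, Nat.card V = 4 → x' ∈ V → y' ∈ V → U = im e V := by
    intro V hV h1 h2
    have : Finite (im e V) := Nat.finite_of_card_ne_zero (by rw [card_im]; omega)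
    refine eq_of_le_of_card_ge (fun u hu => ?_) (by rw [card_im]; omega)
    have m1 : (x : G) ∈ im e V := ex ▸ (mem_im e).2 h1
    have m2 : (y : G) ∈ im e V := ey ▸ (mem_im e).2 h2
    by_cases e1 : (⟨u, hu⟩ : U) = 1
    · rw [show u = 1 from congrArg Subtype.val e1]; exact one_mem _
    by_cases e2 : (⟨u, hu⟩ : U) = x
    · rw [show u = x from congrArg Subtype.val e2]; exact m1
    by_cases e3 : (⟨u, hu⟩ : U) = y
    · rw [show u = y from congrArg Subtype.val e3]; exact m2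
    have := IsKleinFour.eq_mul_of_ne_all hx hy hxy e1 e2 e3
    rw [show u = x * y from congrArg Subtype.val this]; exact mul_mem m1 m2
  rcases f_kl x' hx' y' hy' (e.injective (by rw [map_mul, ex, sq, map_one]))
    (e.injective (by rw [map_mul, ey, sq, map_one]))
    (e.injective (by rw [map_mul, map_mul, ex, ey, cm]))
    (fun h => hx (Subtype.ext (by rw [← ex, h, map_one]; rfl)))
    (fun h => hy (Subtype.ext (by rw [← ey, h, map_one]; rfl)))
    (fun h => hxy (Subtype.ext (by rw [← ex, h, ey]))) with h | h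
  · exact .inl (key _ cards.2.1 h.1 h.2)
  · exact .inr (key _ cards.2.2.1 h.1 h.2)

theorem klein_im (e : T ≃* G) {U : Subgroup T} (hc : Nat.card U = 4) (h : ∀ x ∈ U, x * x = 1) :
    IsKleinFour (im e U) := by
  have h4 : Nat.card (im e U) = 4 := by rw [card_im, hc]
  have : Finite (im e U) := Nat.finite_of_card_ne_zero (by omega)
  have : Nontrivial (im e U) := Finite.one_lt_card_iff_nontrivial.1 (by omega)
  refine ⟨h4, (Monoid.exponent_eq_prime_iff Nat.prime_two).2 fun g hg => ?_⟩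
  refine orderOf_eq_prime ?_ hg
  obtain ⟨_, x, hx, rfl⟩ := g
  apply Subtype.ext
  change e x ^ 2 = 1
  rw [sq, ← map_mul, h x hx, map_one]

theorem le_im (e : T ≃* G) {M : Subgroup G} {S : Subgroup T}
    (h : M.comap e.toMonoidHom ≤ S) : M ≤ im e S := fun x hx => by
  obtain ⟨x, rfl⟩ := e.surjective x
  exact (mem_im e).2 (h hx)

theorem core [Finite G] (e : T ≃* G) {M : Subgroup G} (hM : M ≠ ⊤) : ∃ g : G,
    M ≤ im (e.trans (MulAut.conj g)) S1 ∨ M ≤ im (e.trans (MulAut.conj g)) S2 ∨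
      M ≤ im (e.trans (MulAut.conj g)) F := by
  by_cases h7 : ∃ x ∈ M, orderOf x = 7
  · obtain ⟨x, hx, ho⟩ := h7
    obtain ⟨x, rfl⟩ := e.surjective x
    obtain ⟨c, hc⟩ := f_c7 x (by rw [← ord_e e, ho])
    refine ⟨e c, .inr (.inr (le_im _ (l7 ?_ fun ht => hM ?_)))⟩
    · change e c * e a * (e c)⁻¹ ∈ M
      rcases hc with rfl | rfl
      · simpa using hx
      · simpa [mul_assoc] using M.inv_mem hx
    · rw [eq_top_iff]; intro y _
      obtain ⟨y, rfl⟩ := (e.trans (MulAut.conj (e c))).surjective y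
      exact (ht.ge (mem_top y) :)
  by_cases h3 : ∃ x ∈ M, orderOf x = 3
  · obtain ⟨x, hx, ho⟩ := h3
    obtain ⟨x, rfl⟩ := e.surjective x
    obtain ⟨c, rfl⟩ := f_c3 x (by rw [← ord_e e, ho])
    rcases l3 (M := M.comap (e.trans (MulAut.conj (e c))).toMonoidHom)
      (show e c * e x3 * (e c)⁻¹ ∈ M by simpa using hx)
      (fun y hy h => h7 ⟨_, hy, (ord_e (e.trans (MulAut.conj (e c))) y).trans h⟩) with h | h
    · exact ⟨e c, .inl (le_im _ h)⟩
    · refine ⟨e (c * (el 8)⁻¹), .inr (.inl (le_im _ fun y hy => ?_))⟩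
      have := f_S3 ((el 8)⁻¹ * y * el 8) (h (show e c * e _ * (e c)⁻¹ ∈ M by
        have : e (c * (el 8)⁻¹) * e y * (e (c * (el 8)⁻¹))⁻¹ ∈ M := hy
        simpa [mul_assoc] using this))
      simpa [mul_assoc] using this
  have h2 : IsPGroup 2 M := fun x => by
    obtain ⟨y, hy⟩ := e.surjective x
    have ho : orderOf (x : G) = od y := by rw [← hy, ord_e]
    refine ⟨2, Subtype.ext ?_⟩
    change (x : G) ^ 2 ^ 2 = 1
    rw [← orderOf_dvd_iff_pow_eq_one]
    rcases f_ord y with h | h | h | h | h <;> rw [h] at ho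
    · rw [ho]; norm_num
    · rw [ho]; norm_num
    · exact absurd ⟨_, x.2, ho⟩ h3
    · rw [ho]; norm_num
    · exact absurd ⟨_, x.2, ho⟩ h7
  obtain ⟨S, hS⟩ := h2.exists_le_sylow
  obtain ⟨g, hg⟩ := exists_sylow e S
  exact ⟨g, .inl (hS.trans (hg.le.trans (map_mono f_DS)))⟩

theorem im_ne_top (e : T ≃* G) {S : Subgroup T} (h : Nat.card S ≠ 168) : im e S ≠ ⊤ := fun ht => by
  have := card_im e S
  rw [ht, card_top, card_G e] at this
  exact h this.symm

theorem coatom_eq [Finite G] (e : T ≃* G) {M : Subgroup G} (hM : IsCoatom M) : ∃ g : G,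
    M = im (e.trans (MulAut.conj g)) S1 ∨ M = im (e.trans (MulAut.conj g)) S2 ∨
      M = im (e.trans (MulAut.conj g)) F := by
  obtain ⟨-, -, -, c1, c2, c3, -⟩ := cards
  obtain ⟨g, h | h | h⟩ := core e hM.1
  · exact ⟨g, .inl ((hM.le_iff_eq (im_ne_top _ (by omega))).1 h).symm⟩
  · exact ⟨g, .inr (.inl ((hM.le_iff_eq (im_ne_top _ (by omega))).1 h).symm)⟩
  · exact ⟨g, .inr (.inr ((hM.le_iff_eq (im_ne_top _ (by omega))).1 h).symm)⟩

theorem coatom_im [Finite G] (e : T ≃* G) {S : Subgroup T} (h : Nat.card S = 24) :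
    IsCoatom (im e S) := by
  obtain ⟨-, -, -, c1, c2, c3, -⟩ := cards
  refine ⟨im_ne_top e (by omega), fun K hK => ?_⟩
  by_contra hne
  have h1 : Nat.card (im e S) < Nat.card K :=
    lt_of_le_of_ne (card_le_of_le hK.le) fun e' => hK.ne (eq_of_le_of_card_ge hK.le e'.ge)
  rw [card_im] at h1
  obtain ⟨g, h' | h' | h'⟩ := core e hne <;> have := card_le_of_le h' <;>
    rw [card_im] at this <;> omega

end Cfsg.Agent.H3.L7
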