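import Cfsg.Agent.H3.R4b
import Cfsg.Agent.H3.SyA4
import Cfsg.Agent.H12.GL4
import Cfsg.Agent.H4.PConstr

/-! The Frattini quotient frame for 2-constrained groups. -/

set_option autoImplicit false
set_option linter.unusedSectionVars false
open Subgroup Equiv Cfsg H10 H12
open scoped IsMulCommutative

namespace Cfsg.Agent.H3.R4

theorem no_s6' {X : Type*} [Group X] [Finite X] (hcc : CC(pCore 2 X) ≤ pCore 2 X) (hS : Sc 4 X)
    (ι : Perm (Fin 6) →* X ⧸ pCore 2 X) (hι : Function.Injective ι) : False := by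
  set P := pCore 2 X
  have hPp : IsPGroup 2 P := H1.isPGroup_pCore 2
  haveI := H1.normal_map_char P (frattini P)
  have key := comap_cent_frattini hcc
  set F := (frattini P).map P.subtype
  have hFP : F ≤ P := map_subtype_le _
  let π : X ⧸ F →* X ⧸ P := QuotientGroup.map F P (MonoidHom.id X) hFP
  have hπ : Function.Surjective π := by
    intro y
    obtain ⟨x, rfl⟩ := QuotientGroup.mk_surjective y
    exact ⟨x, rfl⟩
  have hk : π.ker = P.map (QuotientGroup.mk' F) := by
    exact QuotientGroup.ker_map F P (MonoidHom.id X) hFP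
  have hF := (H1.frattini_eq_bot_iff (hPp.to_quotient (frattini P))).1 H1.frattini_quotient_frattini
  have h2 : ∀ n ∈ P, n ^ 2 ∈ F := fun x hx =>
    ⟨⟨x, hx⟩ ^ 2, (QuotientGroup.eq_one_iff _).1
      (by rw [QuotientGroup.mk_pow]; exact hF.2 _), rfl⟩
  haveI : IsMulCommutative π.ker := by
    rw [hk]; exact isMulCommutative_iff_le_CC.2 (map_le_iff_le_comap.2 key.ge)
  refine no_s6 (hS.of_surj _ (QuotientGroup.mk'_surjective F)) π hπ ?_ ?_ ?_ ι hι
  · rintro ⟨v, hv⟩
    rw [hk] at hv
    obtain ⟨x, hx, rfl⟩ := hv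
    apply Subtype.ext
    change QuotientGroup.mk' F x * QuotientGroup.mk' F x = 1
    rw [← map_mul, ← pow_two, QuotientGroup.mk'_apply, QuotientGroup.eq_one_iff]
    exact h2 x hx
  · have := hS P F h2
    rw [hk, ← relIndex_ker, QuotientGroup.ker_mk']
    exact this
  · rw [hk]
    intro y hy
    obtain ⟨x, rfl⟩ := QuotientGroup.mk'_surjective F y
    exact ⟨x, key.le hy, rfl⟩

end Cfsg.Agent.H3.R4
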