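import Cfsg.Agent.H3.R4e
import Cfsg.Agent.H3.R4c

/-! Passing from a 2-constrained group to the standing hypothesis. -/

set_option autoImplicit false
set_option linter.unusedSectionVars false
open Subgroup Cfsg H10 H12
open scoped IsMulCommutative

namespace Cfsg.Agent.H3.R4

theorem hy_of {X K : Type*} [Group X] [Finite X] [Group K] [Nontrivial K]
    (hcc : CC(pCore 2 X) ≤ pCore 2 X) (hS : Sc 4 X) (A : Subgroup (X ⧸ pCore 2 X)) (e : A ≃* K) :
    ∃ π : A.comap (QuotientGroup.mk' (pCore 2 X)) →* K, Hy π ∧ Nonempty (π.ker ≃* pCore 2 X) := by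
  set P := pCore 2 X
  have hPp : IsPGroup 2 P := H1.isPGroup_pCore 2
  have := H1.normal_map_char P (frattini P)
  have key := comap_cent_frattini hcc
  have hF := (H1.frattini_eq_bot_iff (hPp.to_quotient (frattini P))).1 H1.frattini_quotient_frattini
  have h2 : Sq P ≤ (frattini P).map P.subtype := Sq_le_iff.2 fun x hx =>
    ⟨⟨x, hx⟩ ^ 2, (QuotientGroup.eq_one_iff _).1
      (by rw [QuotientGroup.mk_pow]; exact hF.2 _), rfl⟩
  let π : A.comap (QuotientGroup.mk' P) →* K := e.toMonoidHom.comp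
    (((QuotientGroup.mk' P).comp (A.comap (QuotientGroup.mk' P)).subtype).codRestrict A fun x => x.2)
  have hle : P ≤ A.comap (QuotientGroup.mk' P) := fun x hx => by
    rw [mem_comap, QuotientGroup.mk'_apply, (QuotientGroup.eq_one_iff x).2 hx]; exact one_mem _
  have hk : π.ker = P.subgroupOf _ := by
    ext x
    exact ((map_eq_one_iff _ e.injective).trans Subtype.ext_iff).trans (QuotientGroup.eq_one_iff _)
  have hs : Function.Surjective π := fun k => by
    obtain ⟨⟨a, ha⟩, rfl⟩ := e.surjective k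
    obtain ⟨x, rfl⟩ := QuotientGroup.mk_surjective a
    exact ⟨⟨x, ha⟩, rfl⟩
  refine ⟨π, ⟨hs, hk ▸ hPp.comap_subtype, hS.of_inj _ (subtype_injective _), fun hh => ?_⟩,
    ⟨(MulEquiv.subgroupCongr hk).trans (subgroupOfEquivOfLe hle)⟩⟩
  obtain ⟨k, hk1⟩ := exists_ne (1 : K)
  obtain ⟨y, rfl⟩ := hs k
  apply hk1
  rw [← MonoidHom.mem_ker, hk, mem_subgroupOf]
  refine key.le ?_
  rintro _ ⟨x, hx, rfl⟩
  have h3 := mem_map_of_mem (A.comap (QuotientGroup.mk' P)).subtype
    (hh y ⟨x, hle hx⟩ (by rw [hk]; exact hx))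
  rw [map_Sq, hk, subgroupOf_map_subtype, inf_eq_left.2 hle] at h3
  have h4 := (QuotientGroup.eq_one_iff _).2 (h2 h3)
  change QuotientGroup.mk' _ (y.1 * x * y.1⁻¹ * x⁻¹) = 1 at h4
  rw [map_mul, map_mul, map_mul, map_inv, map_inv, mul_inv_eq_one, mul_inv_eq_iff_eq_mul] at h4
  exact h4.symm

end Cfsg.Agent.H3.R4
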